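import Cfsg.Agent.H33.IndSpan

/-! Artin's induction theorem. -/

open Cfsg H28

namespace H33

universe u

open Classical in
/-- The function equal to `|A|` on the generators of `A` and to `0` elsewhere. -/
noncomputable def genFun (A : Type*) [Group A] : A → ℂ :=
  fun a => if Subgroup.zpowers a = ⊤ then (Nat.card A : ℂ) else 0

theorem zpowers_eq_top_iff_coe {G : Type*} [Group G] (B : Subgroup G) (b : B) :
    Subgroup.zpowers b = ⊤ ↔ Subgroup.zpowers (b : G) = B := by
  rw [← (Subgroup.map_injective B.subtype_injective).eq_iff, MonoidHom.map_zpowers,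
    ← MonoidHom.range_eq_map, Subgroup.range_subtype]
  rfl

open Classical in
theorem ext0_genFun {G : Type*} [Group G] (B : Subgroup G) (y : G) :
    extendByZero B (genFun B) y = if Subgroup.zpowers y = B then (Nat.card B : ℂ) else 0 := by
  by_cases hy : y ∈ B
  · rw [ext0_of_mem B _ hy, genFun]
    exact if_congr (zpowers_eq_top_iff_coe B ⟨y, hy⟩) rfl rfl
  · rw [ext0_of_not_mem B _ hy, if_neg]
    rintro rfl
    exact hy (Subgroup.mem_zpowers y)

theorem sum_indFun_genFun {G : Type*} [Group G] [Fintype G] [Fintype (Subgroup G)] :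
    ∑ B : Subgroup G, indFun B (genFun B) = fun _ => (Nat.card G : ℂ) := by
  classical
  funext g
  have : ∀ B : Subgroup G, indFun B (genFun B) g =
      ∑ x : G, if Subgroup.zpowers (x⁻¹ * g * x) = B then (1 : ℂ) else 0 := by
    intro B
    rw [indFun_apply, Finset.mul_sum]
    refine Finset.sum_congr rfl (fun x _ => ?_)
    rw [ext0_genFun]
    split_ifs
    · exact inv_mul_cancel₀ (natCard_ne_zero B)
    · exact mul_zero _
  rw [Finset.sum_apply]
  simp only [this]
  rw [Finset.sum_comm]
  simp

theorem isClassFunction_genFun (A : Type*) [Group A] : IsClassFunction A (genFun A) := by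
  classical
  intro g h
  unfold genFun
  refine if_congr ?_ rfl rfl
  have : Subgroup.zpowers (h * g * h⁻¹) =
      (Subgroup.zpowers g).map (MulAut.conj h).toMonoidHom := by
    rw [MonoidHom.map_zpowers]; rfl
  rw [this, ← (Subgroup.map_injective (f := (MulAut.conj h).toMonoidHom)
    (MulAut.conj h).injective).eq_iff (a := Subgroup.zpowers g) (b := ⊤),
    Subgroup.map_top_of_surjective _ (MulAut.conj h).surjective]

theorem isGeneralizedCharacter_genFun (A : Type u) [Group A] [Finite A] :
    IsGeneralizedCharacter A (genFun A) := by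
  classical
  induction hn : Nat.card A using Nat.strong_induction_on generalizing A with
  | _ n ih =>
  have := Fintype.ofFinite A
  have := Fintype.ofFinite (Subgroup A)
  have h := sum_indFun_genFun (G := A)
  rw [← Finset.add_sum_erase _ _ (Finset.mem_univ ⊤)] at h
  have h1 : indFun (⊤ : Subgroup A) (genFun (⊤ : Subgroup A)) = genFun A := by
    rw [← indFun_top (isClassFunction_genFun A)]
    congr 1
    funext a
    simp only [genFun, zpowers_eq_top_iff_coe, Subgroup.card_top]
  rw [h1, ← eq_sub_iff_add_eq] at h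
  rw [h]
  refine H28.Cfsg.IsGeneralizedCharacter.sub ?_ (isGeneralizedCharacter_sum _ (fun B hB => ?_))
  · have : (fun _ : A => (Nat.card A : ℂ)) = (Nat.card A : ℂ) • fun _ => 1 := by funext; simp
    rw [this]
    exact isGeneralizedCharacter_one.natCast_smul _
  · refine isGeneralizedCharacter_indFun B (ih _ ?_ B rfl)
    rw [← hn, ← B.card_mul_index]
    exact lt_mul_of_one_lt_right Nat.card_pos
      (Subgroup.one_lt_index_of_ne_top (Finset.mem_erase.mp hB).1)

variable {G : Type*} [Group G] [Fintype G]

theorem card_mem_indSpan_cyclic :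
    (fun _ : G => (Nat.card G : ℂ)) ∈ indSpan (fun A : Subgroup G => IsCyclic A) := by
  have := Fintype.ofFinite (Subgroup G)
  rw [← sum_indFun_genFun]
  refine AddSubgroup.sum_mem _ (fun B _ => ?_)
  by_cases hB : IsCyclic B
  · exact indFun_mem_indSpan_of_gen hB (isGeneralizedCharacter_genFun B)
  · have : genFun B = 0 := by
      funext b
      exact if_neg (fun h => hB (isCyclic_iff_exists_zpowers_eq_top.mpr ⟨b, h⟩))
    rw [this, indFun_zero]
    exact AddSubgroup.zero_mem _

theorem monomial_of_comm {A : Type*} [Group A] [Fintype A] (hA : ∀ a b : A, a * b = b * a)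
    {χ : A → ℂ} (hχ : IsIrrCharacter A χ) :
    ∃ (L : Subgroup A) (lam : L →* ℂˣ), χ = indFun L (fun h => (lam h : ℂ)) := by
  obtain ⟨f, rfl⟩ := hχ.isCharacter.exists_hom (hχ.apply_one_of_comm hA)
  exact ⟨⊤, f.comp (Subgroup.subtype ⊤), (indFun_top hχ.isClassFunction).symm⟩

/-- Artin's induction theorem. -/
theorem artin_induction {χ : G → ℂ} (hχ : IsGeneralizedCharacter G χ) :
    (Nat.card G : ℂ) • χ ∈ linSpan (fun A : Subgroup G => IsCyclic A) := by
  refine indSpan_le_linSpan (P := fun A : Subgroup G => IsCyclic A)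
    (fun H U hH hU => Subgroup.isCyclic_of_le hU)
    (fun H _ hH χ hχ => monomial_of_comm (fun a b => mul_comm' a b) hχ) ?_
  exact indSpan_mul_gen card_mem_indSpan_cyclic hχ

end H33
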