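import Cfsg.Agent.H33.Brauer

/-! Dade's theorem on invariant characters of a normal subgroup of `p`-power index. -/

open Cfsg H28
open scoped ComplexConjugate

namespace H33

/-- If every element acts as a `p`-element and `f` is an invariant function whose sum is prime to
`p`, then `f` takes a value prime to `p` at some fixed point. -/
theorem exists_fixed_not_dvd {E Y : Type*} [Group E] [Fintype Y] [MulAction E Y] (p : ℕ)
    [Fact p.Prime] (hE : ∀ g : E, ∃ k : ℕ, ∀ y : Y, g ^ p ^ k • y = y) (f : Y → ℕ)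
    (hf : ∀ (g : E) (y : Y), f (g • y) = f y) (h : ¬ p ∣ ∑ y, f y) :
    ∃ y, (∀ g : E, g • y = y) ∧ ¬ p ∣ f y := by
  classical
  let Q := (MulAction.toPermHom E Y).range
  have hQ : IsPGroup p Q := by
    rintro ⟨_, g, rfl⟩
    obtain ⟨k, hk⟩ := hE g
    refine ⟨k, Subtype.ext ?_⟩
    rw [Subgroup.coe_pow, ← map_pow]
    exact Equiv.ext hk
  have h1 : ∃ v, ¬ p ∣ v ∧ ¬ p ∣ (Finset.univ.filter (fun y => f y = v)).card := by
    by_contra hcon
    push Not at hcon
    apply h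
    rw [← Finset.sum_fiberwise_of_maps_to (s := Finset.univ) (t := Finset.univ.image f) (g := f)
      (fun y hy => Finset.mem_image_of_mem f hy)]
    refine Finset.dvd_sum (fun v _ => ?_)
    rw [Finset.sum_congr rfl (g := fun _ => v) (fun y hy => (Finset.mem_filter.mp hy).2),
      Finset.sum_const, smul_eq_mul]
    by_cases hv : p ∣ v
    · exact hv.mul_left _
    · exact (hcon v hv).mul_right _
  obtain ⟨v, hv, hcard⟩ := h1
  let F : SubMulAction Q Y :=
    { carrier := {y | f y = v}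
      smul_mem' := by
        rintro ⟨_, g, rfl⟩ y hy
        exact (hf g y).trans hy }
  have hF : Nat.card F = (Finset.univ.filter (fun y => f y = v)).card := by
    rw [← Fintype.card_subtype, ← Nat.card_eq_fintype_card]
    rfl
  obtain ⟨y, hy⟩ := hQ.nonempty_fixed_point_of_prime_not_dvd_card F (hF ▸ hcard)
  refine ⟨y.1, fun g => congrArg Subtype.val (hy ⟨_, g, rfl⟩), ?_⟩
  rw [show f y.1 = v from y.2]
  exact hv

/-- Invariant characters whose inner product is prime to `p` have an invariant common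
constituent with multiplicity prime to `p`, when the automorphisms act as `p`-elements modulo
class-preserving ones. -/
theorem exists_invariant_irr_not_dvd {E D : Type*} [Group E] [Group D] [Fintype D] (p : ℕ)
    [Fact p.Prime] (c : E →* MulAut D) (hc : ∀ g : E, ∃ k : ℕ, ∀ d, IsConj (c (g ^ p ^ k) d) d)
    {A B : D → ℂ} (hA : IsCharacter D A) (hB : IsCharacter D B)
    (hAc : ∀ g d, A (c g d) = A d) (hBc : ∀ g d, B (c g d) = B d) {n : ℕ}
    (hn : classInner A B = n) (hp : ¬ p ∣ n) :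
    ∃ φ : D → ℂ, IsIrrCharacter D φ ∧ (∀ g d, φ (c g d) = φ d) ∧
      ∃ a b : ℕ, ¬ p ∣ a ∧ ¬ p ∣ b ∧ classInner A φ = a ∧ classInner B φ = b := by
  let act : MulAction E (IrrCharacter D) :=
    { smul := fun g φ => ⟨fun d => φ.1 (c g⁻¹ d), φ.2.comp_mulEquiv (c g⁻¹)⟩
      one_smul := fun φ => Subtype.ext (funext fun d => by
        change φ.1 (c 1⁻¹ d) = φ.1 d
        simp)
      mul_smul := fun a b φ => Subtype.ext (funext fun d => by
        change φ.1 (c (a * b)⁻¹ d) = φ.1 (c b⁻¹ (c a⁻¹ d))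
        simp) }
  have hsm : ∀ (g : E) (φ : IrrCharacter D), (g • φ).1 = fun d => φ.1 (c g⁻¹ d) := fun _ _ => rfl
  obtain ⟨a, ha, -⟩ := hA.exists_nat_coeffs
  obtain ⟨b, hb, -⟩ := hB.exists_nat_coeffs
  have hinv : ∀ {X : D → ℂ}, (∀ g d, X (c g d) = X d) → ∀ (g : E) (φ : IrrCharacter D),
      classInner X (g • φ).1 = classInner X φ.1 := by
    intro X hX g φ
    rw [hsm, ← classInner_comp_equiv (c g⁻¹).toEquiv X φ.1]
    congr 1
    funext d
    exact (hX g⁻¹ d).symm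
  have hsum : n = ∑ φ, a φ * b φ := by
    have := hA.isClassFunction.classInner_eq_sum_irr B
    rw [hn] at this
    simp only [ha, fun φ : IrrCharacter D => classInner_comm_of_nat (hb φ)] at this
    exact_mod_cast this
  obtain ⟨φ, hφ, hnd⟩ := exists_fixed_not_dvd (E := E) p (fun g => by
      obtain ⟨k, hk⟩ := hc g⁻¹
      refine ⟨k, fun φ => Subtype.ext (funext fun d => ?_)⟩
      rw [hsm, ← inv_pow]
      exact φ.2.isClassFunction.eq_of_isConj (hk d))
    (fun φ => a φ * b φ) (fun g φ => by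
      have h1 : (a (g • φ) : ℂ) = a φ := by rw [← ha, ← ha, hinv hAc]
      have h2 : (b (g • φ) : ℂ) = b φ := by rw [← hb, ← hb, hinv hBc]
      rw [Nat.cast_inj.mp h1, Nat.cast_inj.mp h2]) (hsum ▸ hp)
  refine ⟨φ.1, φ.2, fun g d => ?_, a φ, b φ, fun h => hnd (h.mul_right _),
    fun h => hnd (h.mul_left _), ha φ, hb φ⟩
  have := congrFun (congrArg Subtype.val (hφ g⁻¹)) d
  rwa [hsm, inv_inv] at this

variable {G : Type*} [Group G]

theorem isClassFunction_ext0 (N : Subgroup G) [hN : N.Normal] {α : N → ℂ}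
    (hα : ∀ (g : G) (n : N), α ⟨g * n * g⁻¹, hN.conj_mem (n : G) n.2 g⟩ = α n) :
    IsClassFunction G (extendByZero N α) := by
  intro g x
  by_cases hg : g ∈ N
  · rw [ext0_of_mem N α hg, ext0_of_mem N α (hN.conj_mem g hg x)]
    exact hα x ⟨g, hg⟩
  · rw [ext0_of_not_mem N α hg, ext0_of_not_mem N α]
    intro h
    exact hg (by simpa [mul_assoc] using hN.conj_mem _ h x⁻¹)

theorem classInner_res_eq_ext0 [Fintype G] (N : Subgroup G) [Fintype N] (f : G → ℂ) (α : N → ℂ) :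
    classInner (fun n : N => f n) α = N.index * classInner f (extendByZero N α) := by
  simp only [classInner, ← ext0_conj, mul_comm (f _)]
  rw [sum_ext0_mul N (fun n => conj (α n)) f, ← N.card_mul_index, Nat.cast_mul]
  have : (N.index : ℂ) ≠ 0 := Nat.cast_ne_zero.mpr N.index_ne_zero_of_finite
  field_simp [natCard_ne_zero N]

/-- The Mackey formula against an invariant function on a normal subgroup. -/
theorem classInner_res_indFun [Fintype G] (N : Subgroup G) [hN : N.Normal] [Fintype N]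
    {α : N → ℂ} (hα : ∀ (g : G) (n : N), α ⟨g * n * g⁻¹, hN.conj_mem (n : G) n.2 g⟩ = α n)
    (E : Subgroup G) [Fintype ↥(E ⊓ N)] (ψ : E → ℂ) :
    classInner (fun n : N => indFun E ψ n) α = (E ⊔ N).index *
      classInner (fun d : ↥(E ⊓ N) => ψ ⟨d, d.2.1⟩) (fun d : ↥(E ⊓ N) => α ⟨d, d.2.2⟩) := by
  have := Fintype.ofFinite E
  have := Fintype.ofFinite (N.subgroupOf E)
  rw [classInner_res_eq_ext0, classInner_indFun_left E ψ (isClassFunction_ext0 N hα)]
  have h1 : (fun e : E => extendByZero N α e) =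
      extendByZero (N.subgroupOf E) (fun x => α ⟨(x : E), x.2⟩) := by
    exact (ext0_unique (N.subgroupOf E) _ (fun e : E => extendByZero N α e)
      (fun x => ext0_of_mem N α x.2) (fun e he => ext0_of_not_mem N α he)).symm
  let e : ↥(E ⊓ N) ≃ N.subgroupOf E :=
    ⟨fun d => ⟨⟨d, d.2.1⟩, d.2.2⟩, fun x => ⟨(x : E), (x : E).2, x.2⟩, fun _ => rfl, fun _ => rfl⟩
  have h2 := classInner_comp_equiv e (fun x : N.subgroupOf E => ψ x) (fun x => α ⟨(x : E), x.2⟩)
  have h3 : N.index = (E ⊔ N).index * (N.subgroupOf E).index := by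
    rw [← Subgroup.relIndex, ← Subgroup.relIndex_sup_right E N, mul_comm,
      Subgroup.relIndex_mul_index le_sup_right]
  rw [h1, h3, Nat.cast_mul, mul_assoc, ← classInner_res_eq_ext0, ← h2]
  rfl

/-- Dade's theorem. -/
theorem dade_elementary [Fintype G] (p : ℕ) [Fact p.Prime] (N : Subgroup G) [hN : N.Normal]
    (hind : ∃ k : ℕ, N.index = p ^ k) (ϑ : N → ℂ) (hϑ : IsIrrCharacter N ϑ)
    (hinv : ∀ (g : G) (n : N), ϑ ⟨g * n * g⁻¹, hN.conj_mem (n : G) n.2 g⟩ = ϑ n) :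
    ∃ (E : Subgroup G) (_ : Fintype ↥(E ⊓ N)) (φ : ↥(E ⊓ N) → ℂ), IsElementary p E ∧ E ⊔ N = ⊤ ∧
      IsIrrCharacter ↥(E ⊓ N) φ ∧
      (∀ (g : G) (hg : g ∈ E) (x : ↥(E ⊓ N)), φ ⟨g * x * g⁻¹,
        ⟨(E.mul_mem (E.mul_mem hg x.2.1) (E.inv_mem hg)), hN.conj_mem (x : G) x.2.2 g⟩⟩ = φ x) ∧
      ∃ m : ℕ, ¬ p ∣ m ∧ classInner (fun x : ↥(E ⊓ N) => ϑ ⟨(x : G), x.2.2⟩) φ = (m : ℂ) := by
  have hp : p.Prime := Fact.out
  have := Fintype.ofFinite N
  obtain ⟨k, hk⟩ := hind
  obtain ⟨m, hm, hmem⟩ := one_mem_satur_indSpan p G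
  let α : N → ℂ := fun n => conj (ϑ n) * ϑ n
  have hαc : IsCharacter N α := hϑ.isCharacter.conj.mul hϑ.isCharacter
  have hα : ∀ (g : G) (n : N), α ⟨g * n * g⁻¹, hN.conj_mem (n : G) n.2 g⟩ = α n :=
    fun g n => by simp only [α, hinv]
  have hex : ∃ (E : Subgroup G) (ψ : E → ℂ), IsElementary p E ∧ IsCharacter E ψ ∧
      ∃ z : ℕ, ¬ p ∣ z ∧ classInner (fun n : N => indFun E ψ n) α = z := by
    by_contra hcon
    push Not at hcon
    have key : ∀ f ∈ indSpan (fun E : Subgroup G => IsElementary p E),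
        ∃ z : ℤ, classInner (fun n : N => f n) α = p * z := by
      intro f hf
      induction hf using AddSubgroup.closure_induction with
      | mem x hx =>
        obtain ⟨E, ψ, hE, hψ, rfl⟩ := hx
        obtain ⟨z, hz⟩ := ((H32.isCharacter_indFun E hψ).restrict N).classInner_nat hαc
        by_contra h
        refine hcon E ψ hE hψ z (fun ⟨w, hw⟩ => h ⟨w, ?_⟩) hz
        rw [hz, hw]; push_cast; rfl
      | zero => exact ⟨0, by simp [classInner]⟩
      | add x y _ _ hx hy =>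
        obtain ⟨a, ha⟩ := hx
        obtain ⟨b, hb⟩ := hy
        refine ⟨a + b, ?_⟩
        rw [Int.cast_add, mul_add, ← ha, ← hb, ← classInner_add_left]
        rfl
      | neg x _ hx =>
        obtain ⟨a, ha⟩ := hx
        refine ⟨-a, ?_⟩
        rw [Int.cast_neg, mul_neg, ← ha, ← classInner_neg_left]
        rfl
    obtain ⟨z, hz⟩ := key _ hmem
    have h1 : classInner (fun _ : N => (1 : ℂ)) α = 1 := by
      refine Eq.trans ?_ hϑ.classInner_self
      simp [classInner, α]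
    have h2 : (fun n : N => (m • fun _ : G => (1 : ℂ)) n) = m • fun _ : N => (1 : ℂ) := rfl
    rw [h2, classInner_zsmul_left, h1, mul_one] at hz
    exact hm ⟨z, by exact_mod_cast hz⟩
  obtain ⟨E, ψ, hE, hψ, z, hz, hzz⟩ := hex
  have := Fintype.ofFinite ↥(E ⊓ N)
  rw [classInner_res_indFun N hα] at hzz
  have hψD : IsCharacter ↥(E ⊓ N) (fun d => ψ ⟨d, d.2.1⟩) :=
    hψ.comp (Subgroup.inclusion inf_le_left)
  have hϑD : IsCharacter ↥(E ⊓ N) (fun d => ϑ ⟨d, d.2.2⟩) :=
    hϑ.isCharacter.comp (Subgroup.inclusion inf_le_right)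
  obtain ⟨w, hw⟩ := (hψD.mul hϑD).classInner_nat hϑD
  have hw' : classInner (fun d : ↥(E ⊓ N) => ψ ⟨d, d.2.1⟩)
      (fun d : ↥(E ⊓ N) => α ⟨d, d.2.2⟩) = w := by
    rw [← hw, classInner_mul_left]
    rfl
  rw [hw', ← Nat.cast_mul, Nat.cast_inj] at hzz
  have hEN : E ⊔ N = ⊤ := by
    rw [← Subgroup.index_eq_one]
    have h1 : (E ⊔ N).index ∣ p ^ k := hk ▸ Subgroup.index_dvd_of_le le_sup_right
    have h2 : ¬ p ∣ (E ⊔ N).index := fun h => hz (hzz ▸ h.mul_right w)
    exact (((Nat.Prime.coprime_iff_not_dvd hp).mpr h2).symm.pow_right k).eq_one_of_dvd h1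
  have hEn : E ≤ Subgroup.normalizer ((E ⊓ N : Subgroup G) : Set G) :=
    (le_inf Subgroup.le_normalizer (by rw [Subgroup.normalizer_eq_top]; exact le_top)).trans
      Subgroup.inf_normalizer_le_normalizer_inf
  let c : E →* MulAut ↥(E ⊓ N) :=
    (Subgroup.normalizerMonoidHom (E ⊓ N)).comp (Subgroup.inclusion hEn)
  have hc : ∀ (g : E) (d : ↥(E ⊓ N)), ((c g d : ↥(E ⊓ N)) : G) = g * d * (g : G)⁻¹ :=
    fun _ _ => rfl
  obtain ⟨φ, hφ, hφc, a, b, -, hb, -, hb'⟩ := exists_invariant_irr_not_dvd p c (fun g => ⟨k,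
      fun d => by
        have h1 : ((g ^ p ^ k : E) : G) ∈ N := by
          rw [Subgroup.coe_pow, ← hk]; exact N.pow_index_mem _
        exact (isConj_iff.mpr ⟨⟨_, (g ^ p ^ k).2, h1⟩, Subtype.ext (hc (g ^ p ^ k) d).symm⟩).symm⟩)
    (hψD.mul hϑD) hϑD (fun g d => by
      have h1 := hψ.isClassFunction ⟨d, d.2.1⟩ g
      have h2 := hinv g ⟨d, d.2.2⟩
      exact congrArg₂ (· * ·) h1 h2) (fun g d => hinv g ⟨d, d.2.2⟩) hw
    (fun h => hz (hzz ▸ h.mul_left _))
  exact ⟨E, inferInstance, φ, hE, hEN, hφ, fun g hg x => hφc ⟨g, hg⟩ x, b, hb, hb'⟩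

end H33
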