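import Cfsg.Agent.H62.Mono3

set_option autoImplicit false
set_option linter.unusedSectionVars false

/-! Overgroups of the monomial group in dimension four: the steps common to `SL₄` and `SU₄`. -/

namespace H33.L4

open Module H62

variable {F V : Type*} [Field F] [AddCommGroup V] [Module F V] {ι : Type*} {b : Basis ι F V}
  {M : Subgroup (V ≃ₗ[F] V)} {o i j k l m : ι} {g y d : V ≃ₗ[F] V} {a t : F} {T : F → Prop}

/-- `d` is the diagonal map with entries `t`, `t⁻¹` at `k`, `l`. -/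
def Dg (b : Basis ι F V) (k l : ι) (t : F) (d : V ≃ₗ[F] V) : Prop :=
  ∀ x, d x = x + ((t - 1) * b.repr x k) • b k + ((t⁻¹ - 1) * b.repr x l) • b l

theorem Dg.inv (h : Dg b k l t d) (hkl : k ≠ l) (ht : t ≠ 0) : Dg b k l t⁻¹ d⁻¹ := fun x =>
  d.injective (by
    rw [LinearEquiv.coe_inv, LinearEquiv.apply_symm_apply]
    simp [h _, hkl, hkl.symm]
    match_scalars <;> field_simp <;> ring)

theorem Dg.entry (h : Dg b k l t d) (g : V ≃ₗ[F] V) (j : ι) :
    b.repr ((g⁻¹ * d * g) (b j)) j = 1 + (t - 1) * (b.repr (g (b j)) k * b.repr (g⁻¹ (b k)) j) +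
      (t⁻¹ - 1) * (b.repr (g (b j)) l * b.repr (g⁻¹ (b l)) j) := by
  simp [h _, mul_assoc]

/-- a monomial conjugate of a diagonal map -/
theorem Dg.diag (h : Dg b k l t d) (hkl : k ≠ l) (hy : g⁻¹ * d * g ∈ stabG (lines b)) (j : ι) :
    b.repr ((g⁻¹ * d * g) (b j)) j = 0 ∨ ∃ c, (b.repr (g (b j)) k ≠ 0 → c = t) ∧
      (b.repr (g (b j)) l ≠ 0 → c = t⁻¹) ∧ ∀ r, r ≠ k → r ≠ l → b.repr (g (b j)) r ≠ 0 → c = 1 := by
  refine or_iff_not_imp_left.2 fun e => ?_
  have q1 := congrArg g (diag_of_mem hy e)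
  simp only [LinearEquiv.mul_apply, LinearEquiv.coe_inv, LinearEquiv.apply_symm_apply, map_smul] at q1
  generalize b.repr (g.symm _) j = c at q1
  refine ⟨c, fun e => ?_, fun e => ?_, fun r p1 p2 e => ?_⟩
  · have q2 := congrArg (fun v => b.repr v k) q1
    simp [h _, hkl] at q2
    grind
  · have q2 := congrArg (fun v => b.repr v l) q1
    simp [h _, hkl.symm] at q2
    grind
  · have q2 := congrArg (fun v => b.repr v r) q1
    simp [h _, p1, p2] at q2
    grind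

theorem exists_row (g : V ≃ₗ[F] V) [Fintype ι] (l : ι) : ∃ j, b.repr (g (b j)) l ≠ 0 :=
  exists_repr_ne (b := b) (φ := b.coord l ∘ₗ g.toLinearMap)
    fun e => by simpa using LinearMap.congr_fun e (g.symm (b l))

theorem row_fix (hy : y ∈ stabG (lines b)) (h : y (b o) = b o) (v : V) :
    b.repr (y v) o = b.repr v o :=
  LinearMap.congr_fun (b.ext (f₁ := b.coord o ∘ₗ y.toLinearMap) (f₂ := b.coord o) fun j => by
    by_cases e : j = o
    · simp [e, h]
    obtain ⟨k, hk⟩ := col_of_mem hy j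
    by_cases e' : k = o
    · have := eq_smul_of_repr hk
      rw [e', ← h, ← map_smul, y.injective.eq_iff] at this
      simpa [e] using congrArg (fun v => b.repr v j) this
    · simp [hk o (Ne.symm e'), Ne.symm e]) v

theorem sum_col [Fintype ι] (g : V ≃ₗ[F] V) (j : ι) :
    ∑ k, b.repr (g (b j)) k * b.repr (g⁻¹ (b k)) j = 1 := by
  have := congrArg (fun v => b.repr (g⁻¹ v) j) (b.sum_repr (g (b j)))
  simp only [map_sum, map_smul, Finsupp.coe_finsetSum, Finset.sum_apply, Finsupp.smul_apply,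
    smul_eq_mul] at this
  simpa using this

theorem sum_four [Fintype ι] (h4 : Fintype.card ι = 4) (f : ι → F) (hij : i ≠ j) (hik : i ≠ k)
    (hil : i ≠ l) (hjk : j ≠ k) (hjl : j ≠ l) (hkl : k ≠ l) : ∑ x, f x = f i + f j + f k + f l := by
  classical
  rw [← Finset.eq_univ_of_card {i, j, k, l} (by simp [*])]
  simp [*, add_assoc]

theorem exists_two [Fintype ι] (h4 : 4 ≤ Fintype.card ι) (k l : ι) :
    ∃ m n, m ≠ n ∧ m ≠ k ∧ m ≠ l ∧ n ≠ k ∧ n ≠ l := by
  obtain ⟨m, hm⟩ := exists_list [k, l] (by simp; omega)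
  obtain ⟨n, hn⟩ := exists_list [k, l, m] (by simp; omega)
  simp only [List.mem_cons, List.not_mem_nil, or_false, not_or] at hm hn
  exact ⟨m, n, Ne.symm hn.2.2, hm.1, hm.2, hn.1, hn.2.1⟩

/-- The standing hypotheses; `T` is the set of allowed diagonal entries. -/
structure Mk (b : Basis ι F V) (M : Subgroup (V ≃ₗ[F] V)) (T : F → Prop) : Prop where
  hB : ∀ o, ∀ g ∈ M ⊓ fixL (b o), g ∈ stabG (lines b)
  a0 : ∀ g ∈ M, ∀ i k, (∀ l, l ≠ k → b.repr (g (b i)) l = 0) → g ∈ stabG (lines b)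
  dg : ∀ k l, k ≠ l → ∀ t, T t → ∃ d ∈ M, Dg b k l t d
  ne : ∀ t, T t → t ≠ 0
  inv : ∀ t, T t → T t⁻¹
  sq : ∀ t, T t → T (t ^ 2)
  neg : ∀ t, T t → T (-t)

namespace Mk

variable [Fintype ι] (h : Mk b M T)
include h

/-- two zeros in a column -/
theorem two (ha : T a) (h3 : a ^ 3 ≠ 1) (h4 : a ^ 4 ≠ 1) (hg : g ∈ M) (hlm : l ≠ m)
    (hl : b.repr (g (b i)) l = 0) (hm : b.repr (g (b i)) m = 0) : g ∈ stabG (lines b) := by
  obtain ⟨j, hj⟩ := exists_row (b := b) g l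
  refine h.a0 g hg j l fun r hr => by_contra fun e => ?_
  have key : ∀ t, T t → t ^ 2 ≠ 1 → 1 + (t - 1) * (b.repr (g (b j)) l * b.repr (g⁻¹ (b l)) j) +
      (t⁻¹ - 1) * (b.repr (g (b j)) m * b.repr (g⁻¹ (b m)) j) = 0 := fun t ht t2 => by
    obtain ⟨d, hd, d1⟩ := h.dg l m hlm t ht
    rw [← d1.entry]
    refine (d1.diag hlm (mono_conj h.hB hg hd (i := i) (by simp [d1 _, hl, hm])) j).resolve_right ?_
    rintro ⟨c, c1, c2, c3⟩
    obtain rfl := c1 hj
    by_cases e' : r = m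
    · exact t2 (by rw [pow_two]; nth_rw 2 [c2 (e' ▸ e)]; exact mul_inv_cancel₀ (h.ne c ht))
    · exact t2 (by rw [c3 r hr e' e, one_pow])
  have a0 := h.ne a ha
  have h2 : a ^ 2 ≠ 1 := fun e => h4 (by linear_combination (a ^ 2 + 1) * e)
  have p1 := key a ha h2
  have p2 := key _ (h.inv a ha) (by simpa using h2)
  have p3 := key _ (h.sq a ha) (by rwa [← pow_mul])
  rw [inv_inv] at p2
  rw [← inv_pow] at p3
  have p4 := mul_inv_cancel₀ a0
  generalize a⁻¹ = a' at *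
  grind

/-- a homology whose axis contains a column -/
theorem one (h4 : 4 ≤ Fintype.card ι) (ha : T a) (h3 : a ^ 3 ≠ 1) (h4' : a ^ 4 ≠ 1) (hg : g ∈ M)
    (hz : b.repr (g (b i)) k = 0) (hy : y ∈ M) {s c : F} (hs : s ≠ 0) (hc : c ≠ 0)
    (e : ∀ v, y v = s • (v + (c * b.repr v k) • b k)) : g ∈ stabG (lines b) := by
  have e' : ∀ v, (g⁻¹ * y * g) v = s • (v + (c * b.repr (g v) k) • g⁻¹ (b k)) := fun v => by
    simp [e]
  have h5 : g⁻¹ * y * g ∈ stabG (lines b) :=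
    h.hB i _ ⟨M.mul_mem (M.mul_mem (M.inv_mem hg) hy) hg, s, hs, by simp [e', hz]⟩
  obtain ⟨j, hj⟩ := exists_row (b := b) g k
  obtain ⟨r, hr⟩ := col_of_mem h5 j
  have key : ∀ x, x ≠ j → x ≠ r → b.repr (g⁻¹ (b k)) x = 0 := fun x p1 p2 => by
    have := hr x p2
    rw [e'] at this
    simpa [p1, hs, hc, hj] using this
  obtain ⟨m, n, p1, p2, p3, p4, p5⟩ := exists_two h4 j r
  exact inv_mem_iff.1 (h.two ha h3 h4' (M.inv_mem hg) p1 (key m p2 p3) (key n p4 p5))

/-- the last step -/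
theorem last (h4 : 4 ≤ Fintype.card ι) (ha : T a) (h4' : a ^ 4 ≠ 1)
    (hz : ∀ g ∈ M, g ∉ stabG (lines b) → ∀ j k, 4 * (b.repr (g (b j)) k * b.repr (g⁻¹ (b k)) j) = 1)
    (hg : g ∈ M) : g ∈ stabG (lines b) := by
  by_contra hn
  obtain ⟨j, -⟩ := exists_list (ι := ι) [] (by simp; omega)
  obtain ⟨k, l, hkl, -⟩ := exists_two h4 j j
  have p := hz g hg hn
  have key : ∀ t, T t → t ^ 4 ≠ 1 → t + t⁻¹ + 4 = 0 := fun t ht t4 => by
    obtain ⟨d, hd, d1⟩ := h.dg k l hkl t ht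
    have t0 := h.ne t ht
    have p1 := p j k
    have p2 := p j l
    have p4 := mul_inv_cancel₀ t0
    have e1 := d1.entry g j
    have e2 := (d1.inv hkl t0).entry g j
    have := hz _ (M.mul_mem (M.mul_mem (M.inv_mem hg) hd) hg) (fun hy => by
      rcases d1.diag hkl hy j with e | ⟨c, c1, c2, -⟩
      · rw [e] at e1
        generalize t⁻¹ = t' at *
        grind
      · have := (c1 fun e => by simp [e] at p1).symm.trans (c2 fun e => by simp [e] at p2)
        generalize t⁻¹ = t' at *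
        grind) j j
    rw [show (g⁻¹ * d * g)⁻¹ = g⁻¹ * d⁻¹ * g by group, e1, e2, inv_inv] at this
    generalize t⁻¹ = t' at *
    grind
  have p1 := key a ha h4'
  have p2 := key _ (h.neg a ha) (by rwa [Even.neg_pow (by decide)])
  have p3 := p j j
  rw [inv_neg] at p2
  grind

end Mk

end H33.L4
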