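import Cfsg.Agent.H33.L4Kit
import Cfsg.Agent.H13.SL4Spec

set_option autoImplicit false
set_option linter.unusedSectionVars false

/-! The monomial group is maximal in `SL₄(q)`, `q ≥ 7`. -/

namespace H33.L4

open Module H62

variable {F V : Type*} [Field F] [AddCommGroup V] [Module F V] {ι : Type*} {b : Basis ι F V}
  {M : Subgroup (V ≃ₗ[F] V)} [FiniteDimensional F V] {o i j k l m : ι} {g : V ≃ₗ[F] V} {a : F}

/-- the unipotent maps with entries at `(k,l), (k,m), (o,l), (o,m)` -/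
def Un (b : Basis ι F V) (M : Subgroup (V ≃ₗ[F] V)) (k o l m : ι) (A B C D : F) : Prop :=
  ∃ z ∈ M, ∀ v, z v = v + (A * b.repr v l + B * b.repr v m) • b k +
    (C * b.repr v l + D * b.repr v m) • b o

variable [Fintype ι] (h5 : 4 ≤ Fintype.card ι)
  (hq : ∃ a : F, a ≠ 0 ∧ ∀ n, 0 < n → n ≤ 5 → a ^ n ≠ 1)
  (hM : ∀ e, StabD (lines b) e → LinearMap.det (e : V →ₗ[F] V) = 1 → e ∈ M)
include h5 hq hM

/-- Lifting a transvection from the quotient by a coordinate line. -/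
theorem lift4 {φ : Dual F V}
    {k o : ι} (hko : k ≠ o) {y : V ≃ₗ[F] V} (hy : y ∈ M) (h1 : y (b o) = b o)
    (h2 : ∀ v j, j ≠ o → b.repr (y v) j = b.repr (v + φ v • b k) j) (h0 : φ (b k) = 0)
    (h0' : φ (b o) = 0) (hφ : φ ≠ 0) (e : V ≃ₗ[F] V) (he : LinearMap.det (e : V →ₗ[F] V) = 1) :
    e ∈ M := by
  obtain ⟨a, ha, ha1, ha2, -⟩ := exists_ord (Or.inr hq)
  obtain ⟨ψ, hψ, h3⟩ : ∃ ψ : Dual F V, ψ (b o) = 0 ∧ ∀ v, y v = v + φ v • b k + ψ v • b o :=
    ⟨b.coord o ∘ₗ (y : V →ₗ[F] V) - b.coord o, by simp [h1], fun v => b.ext_elem fun j => by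
      by_cases h : j = o
      · simp [h, hko.symm]
      · simp [h2 v j h, h]⟩
  obtain ⟨l, hl⟩ := exists_repr_ne (b := b) hφ
  have hlk : l ≠ k := fun e => hl (e ▸ h0)
  have hlo : l ≠ o := fun e => hl (e ▸ h0')
  obtain ⟨m, hm⟩ := exists_list [k, o, l] (by simp; omega)
  simp only [List.mem_cons, List.not_mem_nil, or_false, not_or] at hm
  obtain ⟨d, hd, hd'⟩ := mono_d hM (Ne.symm hm.2.2) ha
  have p1 : Un b M k o l m ((a - 1) * φ (b l)) ((a⁻¹ - 1) * φ (b m)) ((a - 1) * ψ (b l))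
      ((a⁻¹ - 1) * ψ (b m)) :=
    ⟨_, mul_mem (mul_mem (mul_mem (inv_mem hd) hy) hd) (inv_mem hy), fun v => by
      obtain ⟨v, rfl⟩ := y.surjective v
      refine d.injective ?_
      simp only [LinearEquiv.mul_apply, LinearEquiv.coe_inv, LinearEquiv.apply_symm_apply,
        LinearEquiv.symm_apply_apply]
      simp [h3, hd', hlk, hlo, hm.1, hm.2.1]
      module⟩
  have cj : ∀ {l m A B C D}, l ≠ k → l ≠ o → m ≠ k → m ≠ o → m ≠ l → Un b M k o l m A B C D →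
      Un b M k o l m ((a⁻¹ - 1) * A) ((a⁻¹ ^ 2 - 1) * B) 0 ((a⁻¹ - 1) * D) := by
    rintro l m A B C D hlk hlo hmk hmo hml ⟨z, hz, z1⟩
    obtain ⟨f, hf, hf'⟩ := mono_d hM hmk.symm ha
    refine ⟨_, mul_mem (mul_mem (mul_mem (inv_mem hf) hz) hf) (inv_mem hz), fun v => ?_⟩
    obtain ⟨v, rfl⟩ := z.surjective v
    refine f.injective ?_
    simp only [LinearEquiv.mul_apply, LinearEquiv.coe_inv, LinearEquiv.apply_symm_apply,
      LinearEquiv.symm_apply_apply]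
    simp [z1, hf', hlk, hlo, hmk, hmo, hml.symm, hko]
    match_scalars <;> field_simp <;> ring
  have sw : ∀ {l m A B C D}, Un b M k o l m A B C D → Un b M k o m l B A D C :=
    fun ⟨z, hz, z1⟩ => ⟨z, hz, fun v => by rw [z1]; module⟩
  obtain ⟨z, hz, z1⟩ := cj hm.1 hm.2.1 hlk hlo (Ne.symm hm.2.2)
    (sw (cj hlk hlo hm.1 hm.2.1 hm.2.2 p1))
  refine mono_of_tv h5 ha ha1 hM (k := k)
    (φ := ((a⁻¹ - 1) * ((a⁻¹ ^ 2 - 1) * ((a⁻¹ - 1) * φ (b m)))) • b.coord m +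
      ((a⁻¹ ^ 2 - 1) * ((a⁻¹ - 1) * ((a - 1) * φ (b l)))) • b.coord l)
    ⟨z, hz, by simp [z1]⟩ (by simp [hlk, hm.1]) (fun e => ?_) e he
  simpa [hm.2.2, hl, sub_eq_zero, ha1, ha2] using LinearMap.congr_fun e (b l)

variable (hc : ¬ ∀ e : V ≃ₗ[F] V, LinearMap.det (e : V →ₗ[F] V) = 1 → e ∈ M)
include hc

theorem mono_B1 (ha : a ≠ 0) (ha1 : a ≠ 1) (hg : g ∈ M ⊓ fixL (b o)) (hi : i ≠ o) (hk : k ≠ o)
    (h : b.repr (g (b i)) k ≠ 0) : b.repr (g⁻¹ (b k)) i ≠ 0 := fun h0 => by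
  obtain ⟨x, hx, ⟨x1, -⟩, x2, x3⟩ := hom_elt hM hg hi ha
  obtain ⟨d, hd, d1, d2⟩ := mono_d' hM hk ha
  obtain ⟨c, -, h3⟩ := (inv_mem hg).2
  have h4 : b.repr (g⁻¹ (b o)) i = 0 := by rw [h3]; simp [hi]
  have x4 : x⁻¹ (b o) = a • b o := x.injective (by simp [x1, smul_smul, ha])
  refine hc (lift4 h5 hq hM hk (y := x * d * x⁻¹ * d⁻¹)
    (φ := ((a - 1) * (a⁻¹ - 1) * b.repr (g (b i)) k) • b.coord i ∘ₗ (g⁻¹ : V ≃ₗ[F] V).toLinearMap)
    (mul_mem (mul_mem (mul_mem hx.1 hd) (inv_mem hx.1)) (inv_mem hd)) ?_ (fun v j hj => ?_)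
    (by simpa using Or.inr h0) (by simpa using Or.inr h4) fun e => ?_)
  · simp only [LinearEquiv.mul_apply, d2, map_add, map_smul, x4, d1]
    simp [hk, x1]
    match_scalars; field_simp; ring
  · have p1 : ∀ w, x (x⁻¹ w) = w := x.apply_symm_apply
    have p2 : b.repr (g⁻¹ (d⁻¹ v)) i = b.repr (g⁻¹ v) i := by
      simp only [d2, map_add, map_smul, Finsupp.add_apply, Finsupp.smul_apply, h0, h4, smul_zero,
        add_zero]
    simp only [LinearEquiv.mul_apply, d1, map_add, map_smul, p1, x1, Finsupp.add_apply,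
      Finsupp.smul_apply, x2 _ j hj, x3 _ k hk, h0, p2]
    simp only [d2]
    by_cases hjk : j = k
    · simp [hjk, hk]; field_simp; ring
    · simp [hjk, hj]
  · simpa [h, sub_eq_zero, ha1] using LinearMap.congr_fun e (g (b i))

theorem mono_B2 (ha : a ≠ 0) (ha1 : a ≠ 1) (hg : g ∈ M ⊓ fixL (b o)) (hi : i ≠ o) (hk : k ≠ o)
    (h : b.repr (g (b i)) k ≠ 0) : b.repr (g⁻¹ (b k)) i * b.repr (g (b i)) k = 1 ∨
      2 * (b.repr (g⁻¹ (b k)) i * b.repr (g (b i)) k) = 1 := by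
  have h1 := mul_ne_zero (mono_B1 h5 hq hM hc ha ha1 hg hi hk h) h
  refine or_iff_not_imp_left.2 fun h2 => ?_
  generalize hp : b.repr (g⁻¹ (b k)) i * b.repr (g (b i)) k = p at h1 h2
  have h3 : (p - 1) / p ≠ 0 := by simpa [h1, sub_eq_zero]
  obtain ⟨x, hx, -, x2, x3⟩ := hom_elt hM hg hi h3
  have h4 : b.repr (x⁻¹ (b k)) k = 0 := by_contra fun e =>
    mono_B1 h5 hq hM hc ha ha1 (inv_mem hx) hk hk e (by
      rw [inv_inv, x2 _ k hk, mul_assoc, hp]; simp; field_simp; ring)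
  rw [x3 _ k hk, mul_assoc, hp] at h4
  have h6 : p - 1 ≠ 0 := sub_ne_zero.2 h2
  simp at h4
  field_simp at h4
  linear_combination h4

theorem mono_B3 (ha : a ≠ 0) (ha1 : a ≠ 1) (hg : g ∈ M ⊓ fixL (b o)) (hi : i ≠ o) (hk : k ≠ o)
    (hl : l ≠ o) (hkl : k ≠ l) (h : b.repr (g (b i)) k ≠ 0) (h' : b.repr (g (b i)) l ≠ 0) :
    ∃ P : F, P = b.repr (g⁻¹ (b k)) i * b.repr (g (b i)) k * (b.repr (g⁻¹ (b l)) i * b.repr (g (b i)) l)
      ∧ ((2 - a - a⁻¹) * P = 1 ∨ 2 * ((2 - a - a⁻¹) * P) = 1) := by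
  obtain ⟨x, hx, -, x2, x3⟩ := hom_elt hM hg hi ha
  have := mono_B2 h5 hq hM hc ha ha1 hx hk hl (by
    rw [x2 _ l hl]
    simp [hkl.symm, sub_eq_zero, ha1, h', show b.repr (g.symm (b k)) i ≠ 0 from
      mono_B1 h5 hq hM hc ha ha1 hg hi hk h])
  rw [x2 _ l hl, x3 _ k hk, Basis.repr_self, Basis.repr_self, Finsupp.single_eq_of_ne hkl,
    Finsupp.single_eq_of_ne hkl.symm] at this
  refine ⟨_, rfl, this.imp (fun e => ?_) fun e => ?_⟩ <;>
  · rw [← e]; field_simp; ring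

theorem mono_B (hg : g ∈ M ⊓ fixL (b o)) : g ∈ stabG (lines b) := by
  have key : ∀ g ∈ M ⊓ fixL (b o), ∀ i k l, i ≠ o → k ≠ o → l ≠ o → k ≠ l →
      b.repr (g (b i)) k ≠ 0 → b.repr (g (b i)) l = 0 := by
    obtain ⟨a, ha, hp⟩ := id hq
    intro g hg i k l hi hk hl hkl h
    by_contra h'
    have t1 := hp 1 (by omega) (by omega)
    have t2 := hp 2 (by omega) (by omega)
    have t3 := hp 3 (by omega) (by omega)
    have t4 := hp 4 (by omega) (by omega)
    have t5 := hp 5 (by omega) (by omega)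
    obtain ⟨P, e, p1⟩ := mono_B3 h5 hq hM hc ha (by simpa using t1) hg hi hk hl hkl h h'
    obtain ⟨_, rfl, p2⟩ := mono_B3 h5 hq hM hc (pow_ne_zero 2 ha) t2 hg hi hk hl hkl h h'
    obtain ⟨_, rfl, p3⟩ := mono_B3 h5 hq hM hc (pow_ne_zero 3 ha) t3 hg hi hk hl hkl h h'
    rw [← e] at p2 p3
    have q1 : a ≠ a ^ 2 := fun e => t1 (mul_left_cancel₀ ha (by linear_combination -e))
    have q2 : a ≠ a ^ 3 := fun e => t2 (mul_left_cancel₀ ha (by linear_combination -e))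
    have q3 : a ^ 2 ≠ a ^ 3 := fun e => t1 (mul_left_cancel₀ (pow_ne_zero 2 ha)
      (by linear_combination -e))
    have r1 := @two_val_aux F _ _ _ P (hx := ha) (hy := pow_ne_zero 2 ha) (h1 := q1)
      (h2 := fun e => t3 (by linear_combination e))
    have r2 := @two_val_aux F _ _ _ P (hx := ha) (hy := pow_ne_zero 3 ha) (h1 := q2)
      (h2 := fun e => t4 (by linear_combination e))
    have r3 := @two_val_aux F _ _ _ P (hx := pow_ne_zero 2 ha) (hy := pow_ne_zero 3 ha) (h1 := q3)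
      (h2 := fun e => t5 (by linear_combination e))
    rw [← one_mul (_ * P)] at p1 p2 p3
    simp only [← mul_assoc (2 : F) 1, mul_one] at p1 p2 p3
    rcases p1 with p1 | p1 <;> rcases p2 with p2 | p2 <;> rcases p3 with p3 | p3 <;>
      first | exact r1 _ p1 p2 | exact r2 _ p1 p3 | exact r3 _ p2 p3
  obtain ⟨a, ha, ha1, ha2, -⟩ := exists_ord (Or.inr hq)
  obtain ⟨c, hc0, h3⟩ := (inv_mem hg).2
  refine mem_of_col fun i => ?_
  by_cases hi : i = o
  · obtain ⟨c, -, h3⟩ := hg.2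
    exact ⟨o, fun l hl => by simp [hi, h3, hl]⟩
  obtain ⟨k, hk, h⟩ : ∃ k, k ≠ o ∧ b.repr (g (b i)) k ≠ 0 := by
    by_contra! h
    have := congrArg (fun v => b.repr (g⁻¹ v) i) (eq_smul_of_repr h)
    simp only [map_smul, h3] at this
    simp [hi] at this
  refine ⟨k, fun l hl => ?_⟩
  by_cases hlo : l = o
  swap
  · exact key g hg i k l hi hk hlo hl.symm h
  obtain ⟨x, hx, ⟨x0, x1⟩, x2, -⟩ := hom_elt hM hg hi ha
  obtain ⟨d, hd, d1, d2⟩ := mono_d' hM hk ha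
  have p1 : ∀ w, b.repr (g⁻¹ w) i = b.repr w k * b.repr (g⁻¹ (b k)) i := fun w =>
    dual_eq_single (b.coord i ∘ₗ (g⁻¹ : V ≃ₗ[F] V).toLinearMap) w k fun j hj => Or.inr (by
      by_cases h1 : j = o
      · change b.repr (g⁻¹ (b j)) i = 0
        rw [h1, h3]; simp [hi]
      · by_contra h2
        exact mono_B1 h5 hq hM hc ha ha1 (inv_mem hg) h1 hi h2 (key g hg i k j hi hk h1 (Ne.symm hj) h))
  have p2 := p1 (g (b i))
  simp only [LinearEquiv.coe_inv, LinearEquiv.symm_apply_apply, Basis.repr_self,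
    Finsupp.single_eq_same] at p2
  have p3 : ∀ v, (x * d⁻¹) v = v + (b.coord o ∘ₗ (x * d⁻¹ : V ≃ₗ[F] V).toLinearMap - b.coord o) v
      • b o := fun v => b.ext_elem fun j => by
    by_cases hj : j = o
    · simp [hj]
    rw [LinearEquiv.mul_apply, x2 _ j hj, p1, d2]
    by_cases hjk : j = k
    · simp [hjk, hk]
      linear_combination (exp := 1) (-(a - 1) * a⁻¹ * b.repr v k) * p2 +
        b.repr v k * mul_inv_cancel₀ ha
    · simp [hj, hjk, key g hg i k j hi hk hj (Ne.symm hjk) h]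
  by_cases h0 : b.coord o ∘ₗ (x * d⁻¹ : V ≃ₗ[F] V).toLinearMap - b.coord o = 0
  · have := congrArg (fun v => b.repr v o) (p3 (d (g (b i))))
    simp only [h0, LinearEquiv.mul_apply, LinearEquiv.coe_inv, LinearEquiv.symm_apply_apply, x1]
      at this
    simp [hk.symm, d1] at this
    rw [hlo]
    refine (mul_eq_zero.1 ?_).resolve_left (sub_ne_zero.2 ha2)
    linear_combination a * this + b.repr (g (b i)) o * mul_inv_cancel₀ ha
  refine (hc (mono_of_tv (by omega) ha ha1 hM ⟨_, M.mul_mem hx.1 (M.inv_mem hd), p3⟩ ?_ h0)).elim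
  simp only [LinearMap.sub_apply, LinearMap.comp_apply, LinearEquiv.coe_coe, LinearEquiv.mul_apply,
    d2, map_add, map_smul, x0]
  simp [hk]
  field_simp
  ring

theorem mk : Mk b M (· ≠ 0) where
  hB := fun _ _ hg => mono_B h5 hq hM hc hg
  a0 := fun g hg i k h => by
    have p1 := eq_smul_of_repr h
    have p2 : b.repr (g (b i)) k ≠ 0 := fun e => b.ne_zero i (by simpa [e] using p1)
    by_cases hk : k = i
    · exact mono_B h5 hq hM hc (o := i) ⟨hg, _, p2, hk ▸ p1⟩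
    obtain ⟨o, ho⟩ := exists_list [k, i] (by simp; omega)
    simp only [List.mem_cons, List.not_mem_nil, or_false, not_or] at ho
    obtain ⟨r, hr, hr', r1⟩ := mono_swap hM hk (Ne.symm ho.1) (Ne.symm ho.2)
    exact (mul_mem_cancel_left hr').1 (mono_B h5 hq hM hc (o := i) ⟨M.mul_mem hr hg, _, p2, by
      rw [LinearEquiv.mul_apply, p1, map_smul, r1]; simp [Ne.symm hk, ho.1]⟩)
  dg := fun _ _ hkl _ ht => mono_d hM hkl ht
  ne := fun _ h => h
  inv := fun _ => inv_ne_zero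
  sq := fun _ => pow_ne_zero 2
  neg := fun _ => neg_ne_zero.2

omit h5 in
theorem sl_mono4 (h4 : Fintype.card ι = 4) (hg : g ∈ M) : g ∈ stabG (lines b) := by
  have h := mk h4.ge hq hM hc
  obtain ⟨a, ha, hq⟩ := hq
  have t3 := hq 3 (by omega) (by omega)
  have t4 := hq 4 (by omega) (by omega)
  have nz : ∀ g ∈ M, g ∉ stabG (lines b) → ∀ i k, b.repr (g (b i)) k ≠ 0 := fun g hg hn i k e => by
    obtain ⟨d, hd⟩ := exists_dil (φ := ((a ^ 4)⁻¹ - 1) • b.coord k) (u := b k) (by simp [ha])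
    let s : V ≃ₗ[F] V := LinearEquiv.smulOfNeZero F V a ha
    refine hn (h.one h4.ge ha t3 t4 hg e (y := s * d) (hM _ ((stabG (lines b)).mul_mem
      (StabD.of_fix fun k v hv => Submodule.smul_mem _ _ hv) (StabD.of_fix fun i v hv => by
        rw [hd]; exact (lines_loc b k).fix (self_mem_lines b k) _ i v hv)) ?_) ha
      (c := (a ^ 4)⁻¹ - 1) (by simpa [sub_eq_zero]) fun v => by simp [s, hd])
    rw [LinearEquiv.coe_toLinearMap_mul, map_mul, det_of_tv hd,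
      show (s : V →ₗ[F] V) = a • LinearMap.id from rfl, LinearMap.det_smul, finrank_eq_card_basis b, h4]
    simp [ha]
  refine h.last h4.ge ha t4 (fun g hg hn o k => ?_) hg
  have key : ∀ l, b.repr (g (b o)) l * b.repr (g⁻¹ (b l)) o =
      b.repr (g (b o)) k * b.repr (g⁻¹ (b k)) o := fun l => by
    by_cases hkl : k = l
    · rw [hkl]
    obtain ⟨m, n, p1, p2, p3, p4, p5⟩ := exists_two h4.ge k l
    have z := nz g hg hn o
    obtain ⟨r, r1, r2, r3⟩ := mono_r (b := b) hkl (z k) (z l)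
    obtain ⟨s, s1, s2, s3⟩ := mono_r (b := b) p1 (z m) (z n)
    have := row_fix (mono_conj h.hB hg (hM _ (mul_mem r1 s1) (by simp [r2, s2]))
      (i := o) (by simp [r3, s3, z])) (o := o) (by simp [r3, s3, z]) (g⁻¹ (b k))
    simp only [LinearEquiv.mul_apply, LinearEquiv.coe_inv, LinearEquiv.apply_symm_apply, r3, s3]
      at this
    simp [p2, p4, Ne.symm hkl, z] at this
    have z1 := z k
    simp only [LinearEquiv.coe_inv]
    grind
  have := sum_col (b := b) g o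
  simp only [key, Finset.sum_const, Finset.card_univ, h4, nsmul_eq_mul] at this
  exact_mod_cast this

omit h5 hq hM hc in
open Cfsg.Geo in
theorem jobL2 : H13.L4.JobL2 := by
  intro F _ _ h7 D hD
  obtain ⟨π, h⟩ := exists_isProj hD.indep hD.iSup_eq_top
  have hk := hD.finrank_eq
  choose v hv hv0 using fun i => exists_mem_notMem (W := D i) (Z := ⊥) (by simp [hk])
  simp only [Submodule.mem_bot] at hv0
  refine isMaximalIn_of_toLE (StabD D) (fun g => LinearMap.det (g : (Fin 4 → F) →ₗ[F] (Fin 4 → F)) = 1)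
    mem_specialLinear_iff (fun g => and_congr (mem_decompositionStabilizer_iff D g)
      (mem_specialLinear_iff g)) ?_ fun M hM _ g hg hns => ?_
  · have hij : (0 : Fin 4) ≠ 1 := by simp
    generalize (0 : Fin 4) = i, (1 : Fin 4) = j at hij
    obtain ⟨φ, p1, p2, -⟩ := h.exists_loc (hv j) (zero_mem _) (by simpa using hv0 j)
    obtain ⟨e, -, he⟩ := hasTv_of_forall (H := ⊤) (p1 i hij _ (hv i)) fun _ _ => trivial
    refine ⟨e, by simp [det_of_tv he, p1 i hij _ (hv i)], fun ⟨σ, hσ⟩ => ?_⟩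
    have p3 : e (v j) ∈ D (σ j) := hσ j ▸ Submodule.mem_map_of_mem (hv j)
    by_cases h3 : σ j = j
    · simpa [he, p2, h.of_mem (hv i), h.of_ne i j hij _ (hv j), hv0] using
        h.of_ne i _ (h3.symm ▸ hij) _ p3
    · simpa [he, p2, h.of_mem (hv j), h.of_ne j i hij.symm _ (hv i), hv0] using
        h.of_ne j _ (Ne.symm h3) _ p3
  have hD' : ∀ i, F ∙ v i = D i := fun i => Submodule.eq_of_le_of_finrank_eq
    (by simpa using hv i) (by rw [finrank_span_singleton (hv0 i), hk])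
  obtain ⟨b, rfl⟩ : ∃ b, lines b = D := ⟨Basis.mk (hD.indep.linearIndependent _ hv hv0) (by
    rw [Submodule.span_range_eq_iSup, ← hD.iSup_eq_top]; simp [hD']),
    funext fun i => by rw [lines, Basis.mk_apply, hD']⟩
  by_contra hc
  obtain ⟨a, ha⟩ := IsCyclic.exists_ofOrder_eq_natCard (α := Fˣ)
  rw [Nat.card_units, Nat.card_eq_fintype_card] at ha
  exact hns (sl_mono4 ⟨a, a.ne_zero, fun n h1 h2 e => pow_ne_one_of_lt_orderOf (x := a) h1.ne'
    (by omega) (Units.ext (by simpa using e))⟩ hM hc (by simp) hg)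

end H33.L4
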