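import Cfsg.Agent.H33.L4Kit
import Cfsg.Agent.H13.SL4Spec

set_option autoImplicit false
set_option linter.unusedSectionVars false

/-! The monomial group is maximal in `SU₄(q)`, `q ≠ 3`. -/

namespace H33.L4

open Module H59 H62

variable {F V : Type*} [Field F] [AddCommGroup V] [Module F V] {σ : F →+* F}
  {M K : Subgroup (V ≃ₗ[F] V)} {B : V →ₛₗ[σ] V →ₗ[F] F} {ι : Type*} [FiniteDimensional F V]
  [Finite F]

theorem mem_of_axis {W : Submodule F V} (h : IsHerm B) (hW : Disjoint W (perp B W))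
    (hf : ∀ p ∈ W, axisGrp B p ≤ K) {e : V ≃ₗ[F] V} (he : e ∈ isom B)
    (hfix : ∀ x ∈ perp B W, e x = x) : e ∈ K := by
  have hc := h.isCompl_perp hW
  have h1 : ∀ x ∈ perp B W, e x ∈ perp B W := fun x hx => by rwa [hfix x hx]
  have h2 : ∀ x ∈ W, e x ∈ W := by
    have := isom_mapsTo_perp he h1
    rwa [h.perp_perp] at this
  have h4 : restr e h1 = 1 := by ext x; simp [coe_restr, hfix x x.2]
  have h5 := sumHom_restr hc e h2 h1
  rw [h4] at h5
  have h6 : restr e h2 ∈ isom (B.domRestrict₁₂ W W) := fun x y => he x y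
  rw [← (h.restrict hW).iSup_axisGrp] at h6
  have h7 : ⨆ p, axisGrp (B.domRestrict₁₂ W W) p ≤
      K.comap ((sumHom hc).comp (MonoidHom.inl _ _)) := iSup_le fun p t ⟨ht, c, hx⟩ =>
    hf p p.2 ⟨(h.sumHom_mem_isom_iff' hW (t, 1)).2 ⟨ht, Subgroup.one_mem _⟩, c, fun v => by
      obtain ⟨x, y, rfl⟩ := exists_add_eq_of_isCompl hc v
      have : B p y = 0 := y.2 p p.2
      change sumHom hc (t, 1) _ = _
      rw [sumHom_apply_add, hx]
      simp only [map_add, this, add_zero, Submodule.coe_add, Submodule.coe_smul,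
        LinearMap.domRestrict₁₂_apply, LinearEquiv.one_eq_refl, LinearEquiv.refl_apply]
      abel⟩
  exact h5 ▸ h7 h6

variable [DecidableEq ι] [Fintype ι] {b : Basis ι F V} {o i j k l : ι} {g : V ≃ₗ[F] V} {a : F}

/-- A non-monomial element fixing a coordinate line gives everything. -/
theorem mem_of_fix (h : IsON B b) (h5 : 4 ≤ Fintype.card ι)
    (hM : ∀ e, StabD (lines b) e → e ∈ sisom B → e ∈ M) (hle : ∀ e ∈ M, e ∈ sisom B)
    (hg : g ∈ M ⊓ fixL (b o)) (hn : g ∉ stabG (lines b)) : ∀ e ∈ sisom B, e ∈ M := by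
  have hh := h.herm
  have hgK : g ∈ liftG M B (b o) := ⟨1, one_mem _, by simpa using ⟨⟨hg.1, hle g hg.1⟩, hg.2⟩⟩
  have h1 : ∀ i, i ≠ o → axisGrp B (b i) ≤ liftG M B (b o) := fun i hi t ht =>
    h.mem_liftG hM (h.axis_mem ht) ht.1 (axisGrp_apply_of_perp ht (by simp [h.on, hi]))
  obtain ⟨i, hi⟩ : ∃ i, ∀ k, ∃ l, l ≠ k ∧ b.repr (g (b i)) l ≠ 0 := by
    by_contra! hc; exact hn (mem_of_col hc)
  obtain ⟨c, hc0, hc⟩ := hg.2
  have hio : i ≠ o := by
    rintro rfl
    obtain ⟨l, h2, h3⟩ := hi i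
    simp [hc, h2] at h3
  have h2 := axis_conj hgK (hle g hg.1).1 (h1 i hio)
  have h3 : B (g (b i)) (g (b i)) = 1 := by rw [(hle g hg.1).1, h.self]
  have h4 : b.repr (g (b i)) o = 0 := by
    have := (hle g hg.1).1 (b o) (b i)
    rw [hc, form_smul_left, h.left, h.on, if_neg hio.symm] at this
    simpa [hc0] using this
  generalize g (b i) = v at hi h2 h3 h4
  obtain ⟨j, hjo, hj⟩ := hi o
  obtain ⟨k, hkj, hk⟩ := hi j
  have hko : k ≠ o := by rintro rfl; exact hk h4
  have step1 : ∀ U : Submodule F V, (∀ u ∈ U, axisGrp B u ≤ liftG M B (b o)) → v ∈ U → ∀ l,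
      b.repr v l ≠ 0 → ∀ u ∈ U ⊔ F ∙ b l, axisGrp B u ≤ liftG M B (b o) := fun U hU hv l hl =>
    axis_ext hh hU (h1 l (by rintro rfl; exact hl h4)) (by simp [h.self]) hv (by simp [h3])
      (by rwa [h.left])
  have step2 : ∀ U : Submodule F V, (∀ u ∈ U, axisGrp B u ≤ liftG M B (b o)) → v ∈ U → b j ∈ U →
      b k ∈ U → ∀ l, l ≠ o → ∀ u ∈ U ⊔ F ∙ b l, axisGrp B u ≤ liftG M B (b o) := by
    intro U hU hv hj' hk' l hl
    by_cases h0 : b.repr v l = 0
    swap; · exact step1 U hU hv l h0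
    have hkl : k ≠ l := by rintro rfl; exact hk h0
    have hjl : j ≠ l := by rintro rfl; exact hj h0
    obtain ⟨s, s1, s2, -, s4⟩ := h.exists_swap hkl (t := 1) (by simp)
    intro u hu
    refine axis_ext hh hU (axis_conj (h.mem_liftG hM s1 s2 (by simp [s4, hl, hko])) s2 h2)
      (by simp [s2 v v, h3]) hj' (by simp [h.self]) (by simp [h.right, s4, hkj.symm, hjl, hj]) u
      ((sup_le le_sup_left ?_ : U ⊔ (F ∙ b l) ≤ _) hu)
    rw [Submodule.span_singleton_le_iff_mem, ← Submodule.smul_mem_iff _ hk]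
    convert Submodule.add_mem_sup (U.sub_mem (U.smul_mem (b.repr v k) hk') hv)
      (Submodule.mem_span_singleton_self (s v)) using 1
    simp [s4, h0]; module
  have h6 : ∀ I : Finset ι, o ∉ I → ∀ u ∈ ((F ∙ v) ⊔ F ∙ b j) ⊔ (F ∙ b k) ⊔
      Submodule.span F (b '' I), axisGrp B u ≤ liftG M B (b o) := by
    have m := fun x : V => Submodule.mem_span_singleton_self (R := F) x
    intro I
    induction I using Finset.induction_on with
    | empty =>
      intro _
      simpa using step1 _ (step1 _ (fun u hu => by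
        obtain ⟨a, rfl⟩ := Submodule.mem_span_singleton.1 hu
        exact axis_smul h2 a) (m v) j hj) (Submodule.mem_sup_left (m v)) k hk
    | insert l I hl ih =>
      intro hI
      rw [Finset.mem_insert, not_or] at hI
      rw [Finset.coe_insert, Set.image_insert_eq, Submodule.span_insert, sup_comm (F ∙ b l),
        ← sup_assoc]
      exact step2 _ (ih hI.2)
        (Submodule.mem_sup_left (Submodule.mem_sup_left (Submodule.mem_sup_left (m _))))
        (Submodule.mem_sup_left (Submodule.mem_sup_left (Submodule.mem_sup_right (m _))))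
        (Submodule.mem_sup_left (Submodule.mem_sup_right (m _))) l (Ne.symm hI.1)
  have h7' : ∀ p, B (b o) p = 0 → axisGrp B p ≤ liftG M B (b o) := fun p hp =>
    h6 (Finset.univ.erase o) (by simp) p (Submodule.mem_sup_right (by
      rw [Basis.mem_span_image]
      intro l hl
      simp only [Finset.coe_erase, Finset.coe_univ, Set.mem_sdiff, Set.mem_univ, true_and]
      rintro rfl
      exact Finsupp.mem_support_iff.1 hl (by rwa [← h.left])))
  have h7 : ∀ p, B (b o) p = 0 → B p p = 0 → FullU M B p := fun p hp hp0 =>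
    (axis_iff_fullU hh hp0).1 fun t ht =>
      mem_of_liftG (by simp [h.self]) (h7' p hp ht) (axisGrp_le_sisom hp0 ht)
  have hW := hh.disjoint_span_singleton (v := b o) (by simp [h.self])
  have hd := hh.finrank_add_finrank_perp (F ∙ b o)
  rw [finrank_span_singleton (b.ne_zero o), finrank_eq_card_basis b] at hd
  have hG : GoodU M B (perp B (F ∙ b o)) := ⟨hh.disjoint_perp_perp hW, by omega,
    fun e he hfix => mem_of_liftG (o := b o) (by simp [h.self]) (mem_of_axis hh
      (hh.disjoint_perp_perp hW) (fun p hp => h7' p (mem_perp_singleton.1 hp)) he.1 hfix) he⟩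
  refine hG.mem_of_top hh ?_ (by rw [finrank_eq_card_basis b]; omega)
  obtain ⟨m, hm⟩ := exists_list [o, j, k] (by simp; omega)
  simp only [List.mem_cons, List.not_mem_nil, or_false, not_or] at hm
  obtain ⟨r, r1, -, r2, r3⟩ := h.exists_swap_mem hM hjo (t := 1) (by simp) (Ne.symm hm.2.1)
    (Ne.symm hm.1)
  obtain ⟨a, ha⟩ := exists_norm_eq' hh.ne_id hh.invol (μ := -1) (by simp)
  have ha0 : a ≠ 0 := by rintro rfl; simp at ha
  have h8 := (h7 (b j + a • b k) (by simp [h.on, hjo.symm, hko.symm])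
    (by simp [h.on, hkj, hkj.symm]; linear_combination ha)).conj r1 r2
  have h9 : r (b j + a • b k) = b o + a • b k := by
    simp [r3, hjo, hko, hkj, Ne.symm hm.2.1, Ne.symm hm.2.2]; abel
  rw [h9] at h8
  have hk' : b k ∈ perp B (F ∙ b o) := mem_perp_singleton.2 (by simp [h.on, hko.symm])
  have := mem_uSub (W := perp B (F ∙ b o)) h8 fun h0 => by simpa [h.on, hko, ha0] using h0 _ hk'
  rw [Submodule.add_mem_iff_left _ (Submodule.smul_mem _ _ (hG.le_uSub hh hk'))] at this
  rw [eq_top_iff, ← (hh.isCompl_perp hW).sup_eq_top]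
  exact sup_le (by rwa [Submodule.span_singleton_le_iff_mem]) (hG.le_uSub hh)

variable (h : IsON B b) (h4 : Fintype.card ι = 4)
  (hM : ∀ e, StabD (lines b) e → e ∈ sisom B → e ∈ M) (hle : ∀ e ∈ M, e ∈ sisom B)
  (hc : ¬ ∀ e ∈ sisom B, e ∈ M) (ha : σ a * a = 1) (ha4 : a ^ 4 ≠ 1)
include h h4 hM hle hc

theorem mkU : Mk b M fun t => σ t * t = 1 := by
  have hB : ∀ o, ∀ g ∈ M ⊓ fixL (b o), g ∈ stabG (lines b) := fun o g hg =>
    by_contra fun hn => hc (mem_of_fix h h4.ge hM hle hg hn)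
  refine ⟨hB, fun g hg i k h0 => ?_, fun _ _ hkl _ ht => ?_, by rintro _ ht rfl; simp at ht,
    fun t ht => by rw [map_inv₀, ← mul_inv, ht, inv_one],
    fun t ht => by rw [map_pow, ← mul_pow, ht, one_pow], fun t ht => by simpa using ht⟩
  · have p1 := eq_smul_of_repr h0
    have p2 : b.repr (g (b i)) k ≠ 0 := fun e => b.ne_zero i (by simpa [e] using p1)
    by_cases hk : k = i
    · exact hB i g ⟨hg, _, p2, hk ▸ p1⟩
    obtain ⟨o, ho⟩ := exists_list [k, i] (by simp; omega)
    simp only [List.mem_cons, List.not_mem_nil, or_false, not_or] at ho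
    obtain ⟨r, hr, hr', -, r1⟩ := h.exists_swap_mem hM hk (t := 1) (by simp) (Ne.symm ho.1)
      (Ne.symm ho.2)
    exact (mul_mem_cancel_left hr').1 (hB i (r * g) ⟨M.mul_mem hr hg, _, p2, by
      rw [LinearEquiv.mul_apply, p1, map_smul, r1]; simp [Ne.symm hk, ho.1]⟩)
  · obtain ⟨d, hd, -, d1⟩ := h.exists_diag hM hkl ht
    exact ⟨d, hd, d1⟩

include ha ha4

theorem nzU (hg : g ∈ M) (hn : g ∉ stabG (lines b)) (i k : ι) : b.repr (g (b i)) k ≠ 0 := fun hz => by
  have mk := mkU h h4 hM hle hc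
  have a0 := mk.ne a ha
  obtain ⟨y, hy, e⟩ : ∃ y ∈ M, ∀ v, y v = a • (v + (((a ^ 4)⁻¹ - 1) * b.repr v k) • b k) := by
    let s : V ≃ₗ[F] V := LinearEquiv.smulOfNeZero F V a a0
    have s1 : s ∈ stabG (lines b) := StabD.of_fix fun k v hv => Submodule.smul_mem _ _ hv
    obtain ⟨r, ⟨-, c, hc⟩, r1, r2, -, -⟩ := h.fix_det hM k s1 fun x y => by
      change B (a • x) (a • y) = _
      rw [form_smul_left, form_smul_right, ← mul_assoc, ha, one_mul]
    rw [hc, map_inv, Units.val_inv_eq_inv_val, det_of_scalar (g := s) (a := a) fun _ => rfl,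
      finrank_eq_card_basis b, h4, h.self] at r1
    obtain rfl : c = (a ^ 4)⁻¹ - 1 := by
      have := congrArg (fun v => b.repr v k) r1
      simp at this
      rw [← this]; ring
    exact ⟨_, r2, fun v => by simp [s, hc, h.left]⟩
  have c0 : (a ^ 4)⁻¹ - 1 ≠ 0 := by simpa [sub_eq_zero]
  by_cases h3 : a ^ 3 = 1
  swap
  · exact hn (mk.one h4.ge ha h3 ha4 hg hz hy a0 c0 e)
  have c2 : (a ^ 4)⁻¹ - 1 ≠ -2 := fun e => by
    have := mul_inv_cancel₀ (pow_ne_zero 4 a0)
    grind
  generalize (a ^ 4)⁻¹ - 1 = c at e c0 c2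
  have e' : ∀ v, (g⁻¹ * y * g) v = a • (v + (c * b.repr (g v) k) • g⁻¹ (b k)) := fun v => by
    simp [e]
  have h5 : g⁻¹ * y * g ∈ stabG (lines b) :=
    mk.hB i _ ⟨M.mul_mem (M.mul_mem (M.inv_mem hg) hy) hg, a, a0, by simp [e', hz]⟩
  have key : ∀ r s, r ≠ s → b.repr (g⁻¹ (b k)) r ≠ 0 → b.repr (g⁻¹ (b k)) s ≠ 0 →
      1 + c * (b.repr (g⁻¹ (b k)) r * b.repr (g (b r)) k) = 0 ∧
      ∀ x, x ≠ r → x ≠ s → b.repr (g⁻¹ (b k)) x = 0 := fun r s hrs p1 p2 => by
    have p3 : b.repr (g (b r)) k ≠ 0 := fun e => p1 (by rw [h.inv_repr (hle g hg).1, e, map_zero])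
    obtain ⟨x, hx⟩ := col_of_mem h5 r
    obtain rfl : s = x := by_contra fun e => by
      have := hx s e
      rw [e'] at this
      exact p2 (by simpa [hrs.symm, a0, c0, p3] using this)
    refine ⟨?_, fun x p4 p5 => ?_⟩
    · have := hx r hrs
      simp only [e', map_smul, map_add, Finsupp.smul_apply, Finsupp.add_apply, Basis.repr_self,
        Finsupp.single_eq_same, smul_eq_mul] at this
      grind
    · have := hx x p5
      rw [e'] at this
      simpa [p4, a0, c0, p3] using this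
  obtain ⟨r, hr⟩ : ∃ r, b.repr (g⁻¹ (b k)) r ≠ 0 := by
    by_contra! e
    exact b.ne_zero k (g⁻¹.map_eq_zero_iff.1 (b.ext_elem fun x => by simp only [e, map_zero]; rfl))
  refine hn (inv_mem_iff.1 (mk.a0 _ (M.inv_mem hg) k r fun s hs => by_contra fun e => ?_))
  obtain ⟨p1, p2⟩ := key r s (Ne.symm hs) hr e
  obtain ⟨p3, -⟩ := key s r hs e hr
  have := sum_col (b := b) g⁻¹ k
  rw [inv_inv, Finset.sum_eq_add r s (Ne.symm hs) (fun x _ hx => by rw [p2 x hx.1 hx.2, zero_mul])
    (by simp) (by simp)] at this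
  grind

theorem su_mono4 (hg : g ∈ M) : g ∈ stabG (lines b) := by
  have mk := mkU h h4 hM hle hc
  have hh := h.herm
  have nz := fun g => nzU (g := g) h h4 hM hle hc ha ha4
  refine mk.last h4.ge ha ha4 (fun g hg hn p o => ?_) hg
  have hz := nz g hg hn
  have key : ∀ i j k l, i ≠ j → k ≠ l → i ≠ k → i ≠ l → j ≠ k → j ≠ l → ∀ s s' t : F,
      σ s * s = 1 → σ s' * s' = 1 → σ t * t = 1 → s' ≠ s →
      σ (σ s * b.repr (g (b o)) j - b.repr (g (b o)) i) *
        (σ s * b.repr (g (b o)) j - b.repr (g (b o)) i) +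
      σ (σ t * b.repr (g (b o)) l - b.repr (g (b o)) k) *
        (σ t * b.repr (g (b o)) l - b.repr (g (b o)) k) = 1 →
      σ (σ s' * b.repr (g (b o)) j - b.repr (g (b o)) i) *
        (σ s' * b.repr (g (b o)) j - b.repr (g (b o)) i) =
      σ (σ s * b.repr (g (b o)) j - b.repr (g (b o)) i) *
        (σ s * b.repr (g (b o)) j - b.repr (g (b o)) i) →
      2 * (b.repr (g (b p)) i * b.repr (g⁻¹ (b i)) p +
        b.repr (g (b p)) j * b.repr (g⁻¹ (b j)) p) = 1 := by
    intro i j k l hij hkl hik hil hjk hjl s s' t hs hs' ht hss e1 e2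
    obtain ⟨r, r1, -, r2, r3⟩ := h.exists_dbl hM hij hkl hik hil hjk hjl hs ht
    obtain ⟨r', r1', -, r2', r3'⟩ := h.exists_dbl hM hij hkl hik hil hjk hjl hs' ht
    have k1 : ∀ r ∈ M, B (g (b o)) (r (g (b o))) = 0 → g⁻¹ * r * g ∈ stabG (lines b) :=
      fun r hr h0 => by_contra fun h1 => nz _
        (M.mul_mem (M.mul_mem (M.inv_mem hg) hr) hg) h1 o o (by
          rw [← h.left, ← (hle g hg).1]; simpa using h0)
    have n1 : B (g (b o)) (g (b o)) = 1 := by rw [(hle g hg).1, h.self]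
    have hy := mul_mem (k1 r r1 (by rw [r3, n1]; linear_combination -e1))
      (k1 r' r1' (by rw [r3', n1, e2]; linear_combination -e1))
    rw [show g⁻¹ * r * g * (g⁻¹ * r' * g) = g⁻¹ * (r * r') * g by group] at hy
    have iv : (s' * σ s)⁻¹ = s * σ s' :=
      inv_eq_of_mul_eq_one_right (by linear_combination σ s * s * hs' + hs)
    have d1 : Dg b i j (s' * σ s) (r * r') := fun v => by
      rw [iv, LinearEquiv.mul_apply, r2, r2']
      simp [hij, hij.symm, hkl, hkl.symm, hik, hik.symm, hil, hil.symm, hjk, hjk.symm, hjl,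
        hjl.symm]
      match_scalars <;> grind
    have u1 : s' * σ s ≠ 1 := fun e => hss (by linear_combination s * e - s' * hs)
    have u2 : s' * σ s * (s' * σ s)⁻¹ = 1 := by rw [iv]; linear_combination σ s * s * hs' + hs
    have z : ∀ x, _ := fun x => (d1.entry g x).symm.trans ((d1.diag hij hy x).resolve_right
      fun ⟨c, c1, _, c3⟩ => u1 ((c1 (hz x i)).symm.trans (c3 k hik.symm hjk.symm (hz x k))))
    have z1 := Finset.sum_eq_zero (s := Finset.univ) fun x _ => z x
    have s1 := sum_col (b := b) g⁻¹ i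
    have s2 := sum_col (b := b) g⁻¹ j
    simp only [inv_inv, mul_comm (b.repr (g⁻¹ _) _)] at s1 s2
    simp only [Finset.sum_add_distrib, ← Finset.mul_sum, s1, s2, Finset.sum_const, Finset.card_univ,
      h4, nsmul_eq_mul] at z1
    have z2 := z p
    generalize (s' * σ s)⁻¹ = u' at *
    generalize s' * σ s = u at *
    obtain rfl : u = -1 := by grind
    grind
  have k2 : ∀ i j, i ≠ j → 2 * (b.repr (g (b p)) i * b.repr (g⁻¹ (b i)) p +
      b.repr (g (b p)) j * b.repr (g⁻¹ (b j)) p) = 1 := fun i j hij => by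
    obtain ⟨k, l, hkl, p1, p2, p3, p4⟩ := exists_two h4.ge i j
    obtain ⟨s, t, hs, ht, e, ⟨s', q1, q2, q3⟩ | ⟨t', q1, q2, q3⟩⟩ := exists_two_circles hh.ne_id
      hh.invol (hz o i) (hz o j) (hz o k) (hz o l) (map_one σ)
    · exact key i j k l hij hkl p1.symm p3.symm p2.symm p4.symm s s' t hs q2 ht q1 e q3
    · have := key k l i j hkl hij p1 p2 p3 p4 t t' s ht q2 hs q1 (by rw [add_comm, e]) q3
      have s1 := sum_col (b := b) g p
      rw [sum_four h4 _ hij p1.symm p3.symm p2.symm p4.symm hkl] at s1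
      linear_combination 2 * s1 - this
  obtain ⟨k, l, hkl, p1, -, p3, -⟩ := exists_two h4.ge o o
  linear_combination k2 o k p1.symm + k2 o l p3.symm - k2 k l hkl

omit h h4 hM hle hc ha ha4 in
open Cfsg Cfsg.Geo in
theorem jobU3 : H13.L4.JobU3 := by
  intro F _ _ q hF hq D hD
  have h := isHerm_uForm hF 4
  obtain ⟨π, hp⟩ := exists_isProj hD.decomp.indep hD.decomp.iSup_eq_top
  have hk := hD.decomp.finrank_eq
  have hn := fun i => disjoint_perp_of_nondegOn hF (hD.nondegenerate i)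
  have ho : ∀ i j, i ≠ j → ∀ u ∈ D i, ∀ v ∈ D j, uForm hF 4 u v = 0 := fun i j hij u hu v hv => by
    rw [← hermForm_eq]; exact hD.orthogonal j i hij.symm v hv u hu
  obtain ⟨d, hd0, hd⟩ := exists_trace_zero_ne_zero h.ne_id h.invol
  choose v hv hv0 using fun i => h.exists_self_ne_zero_of_disjoint (hn i) fun h0 => by
    have := hk i; rw [h0, finrank_bot] at this; omega
  choose a ha using fun i => h.exists_smul_norm_eq (hv0 i) (map_one _)
  have hw := fun i => (D i).smul_mem (a i) (hv i)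
  have hw0 : ∀ i, a i • v i ≠ 0 := fun i e => by simpa [e] using ha i
  have hD' : ∀ i, F ∙ a i • v i = D i := fun i => Submodule.eq_of_le_of_finrank_eq
    (by simpa using hw i) (by rw [finrank_span_singleton (hw0 i), hk])
  obtain ⟨b, hb, rfl⟩ : ∃ b, IsON (uForm hF 4) b ∧ lines b = D :=
    ⟨Basis.mk (hD.decomp.indep.linearIndependent _ hw hw0) (by
      rw [Submodule.span_range_eq_iSup, ← hD.decomp.iSup_eq_top]; simp [hD']),
    ⟨h, fun i j => by
      rw [Basis.mk_apply, Basis.mk_apply]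
      split_ifs with e
      · rw [← e, ha]
      · exact ho i j e _ (hw i) _ (hw j)⟩, funext fun i => by rw [lines, Basis.mk_apply, hD']⟩
  obtain ⟨u, hu⟩ := IsCyclic.exists_ofOrder_eq_natCard (α := normOne F q)
  rw [card_normOne hF] at hu
  have u4 : ((u : Fˣ) : F) ^ 4 ≠ 1 := fun e => by
    have := orderOf_dvd_of_pow_eq_one (x := u) (n := 4) (Subtype.ext (Units.ext (by simpa using e)))
    rw [hu] at this
    have h2 := two_le_q hF
    have h3 := Nat.le_of_dvd (by omega) this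
    obtain rfl : q = 2 := by omega
    omega
  refine isMaximalIn_of_toLE (StabD (lines b)) (· ∈ sisom (uForm hF 4)) (mem_su_iff hF)
    (fun g => and_congr (mem_decompositionStabilizer_iff _ g) (mem_su_iff hF g)) ?_
    fun M hM hle g hg hns => by_contra fun hc =>
      hns (su_mono4 hb (by simp) hM hle hc ((mem_normOne' hF).1 u.2) u4 hg)
  obtain ⟨c, hc⟩ := exists_norm_eq' h.ne_id h.invol (μ := -1) (by simp)
  have hc0 : c ≠ 0 := by rintro rfl; simp at hc
  have hp0 : uForm hF 4 (b 0 + b 1 + c • b 2 + c • b 3) (b 0 + b 1 + c • b 2 + c • b 3) = 0 := by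
    simp [hb.on]
    linear_combination 2 * hc
  obtain ⟨e, he, hex⟩ := h.exists_transv hp0 hd
  refine ⟨e, axisGrp_le_sisom hp0 he, (lines_proj b).not_stabD (self_mem_lines b 0)
    (show (1 : Fin 4) ≠ 2 by decide) ?_ ?_⟩ <;>
  simp [hex, hb.on, hd0, hc0, b.ne_zero]

end H33.L4
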