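/- Finite groups whose elements have order at most four. -/
import Cfsg.Agent.H3.NonCyclic
import Cfsg.Agent.H5.FrobCompl
import Cfsg.Agent.H29.Burnside
import Cfsg.Agent.H2.MinNormal

set_option autoImplicit false
set_option linter.unusedSectionVars false

open Cfsg Subgroup
open scoped commutatorElement

namespace H33.O4

variable {G : Type*} [Group G]

theorem eq_one_of_34 {g : G} (h3 : g ^ 3 = 1) (h4 : g ^ 4 = 1) : g = 1 := by
  rw [show (4 : ℕ) = 3 + 1 from rfl, pow_succ, h3, one_mul] at h4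
  exact h4

structure Ctx (N : Subgroup G) : Prop where
  H : ∀ g : G, g ^ 3 = 1 ∨ g ^ 4 = 1
  nrm : N.Normal
  four : ∀ u ∈ N, u ^ 4 = 1

def Gd (N : Subgroup G) (x : G) : Prop := x ∉ N ∧ x ^ 3 = 1

variable {N : Subgroup G} {x : G}

theorem Gd.inv (hx : Gd N x) : Gd N x⁻¹ :=
  ⟨fun h => hx.1 (inv_mem_iff.1 h), by rw [inv_pow, hx.2, inv_one]⟩

theorem Gd.sq (hx : Gd N x) : x * x = x⁻¹ := by
  rw [eq_inv_iff_mul_eq_one, ← hx.2, pow_three']

namespace Ctx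

variable (h : Ctx N)
include h

theorem cj {u : G} (hu : u ∈ N) (g : G) : g * u * g⁻¹ ∈ N := h.nrm.conj_mem u hu g

theorem cj' {u : G} (hu : u ∈ N) (g : G) : g⁻¹ * u * g ∈ N := h.nrm.conj_mem' u hu g

theorem mul (hx : Gd N x) {u : G} (hu : u ∈ N) : Gd N (u * x) := by
  have := h.nrm
  refine ⟨fun e => hx.1 ((N.mul_mem_cancel_left hu).1 e), (h.H _).resolve_right fun e => hx.1 ?_⟩
  have h1 : ((u * x : G) : G ⧸ N) = x := by
    rw [QuotientGroup.mk_mul, (QuotientGroup.eq_one_iff u).2 hu, one_mul]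
  refine (QuotientGroup.eq_one_iff x).1 (eq_one_of_34 ?_ ?_)
  · rw [← QuotientGroup.mk_pow, hx.2, QuotientGroup.mk_one]
  · rw [← h1, ← QuotientGroup.mk_pow, e, QuotientGroup.mk_one]

theorem fpf (hx : Gd N x) {u : G} (hu : u ∈ N) (hc : x * u * x⁻¹ = u) : u = 1 := by
  have h1 := (h.mul hx hu).2
  rw [(show Commute u x from (mul_inv_eq_iff_eq_mul.1 hc).symm).mul_pow, hx.2, mul_one] at h1
  exact eq_one_of_34 h1 (h.four u hu)

theorem norm_one (hx : Gd N x) {u : G} (hu : u ∈ N) : u * (x * u * x⁻¹) * (x⁻¹ * u * x) = 1 := by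
  have h1 := (h.mul hx hu).2
  have e : x⁻¹ * x⁻¹ = x := by rw [hx.inv.sq, inv_inv]
  calc _ = u * x * u * (x⁻¹ * x⁻¹) * u * x := by group
    _ = 1 := by rw [e, ← h1, pow_three']; group

theorem comm_c (hx : Gd N x) {u v : G} (hu : u ∈ N) (hv : v ∈ N) :
    Commute u (v * (x * u * x⁻¹) * v⁻¹) := by
  have hy := h.mul hx hv
  have h1 := h.norm_one hy hu
  have h2 := h.norm_one hy.inv hu
  rw [inv_inv] at h2
  have e : v * (x * u * x⁻¹) * v⁻¹ = v * x * u * (v * x)⁻¹ := by group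
  rw [e]
  generalize v * x * u * (v * x)⁻¹ = a at *
  generalize (v * x)⁻¹ * u * (v * x) = b at *
  rw [eq_inv_of_mul_eq_one_right h1] at h2
  calc u * a = a * (u * (u * a)⁻¹ * a)⁻¹ * u := by group
    _ = a * u := by rw [h2, inv_one, mul_one]

theorem comm_1 (hx : Gd N x) {u : G} (hu : u ∈ N) : Commute u (x * u * x⁻¹) := by
  simpa using h.comm_c hx hu (one_mem _)

theorem comm_2 (hx : Gd N x) {u : G} (hu : u ∈ N) : Commute u (x⁻¹ * u * x) := by
  simpa using h.comm_1 hx.inv hu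

theorem comm_3 (hx : Gd N x) {u : G} (hu : u ∈ N) : Commute (x * u * x⁻¹) (x⁻¹ * u * x) := by
  rw [eq_inv_of_mul_eq_one_right (h.norm_one hx hu)]
  exact ((h.comm_1 hx hu).symm.mul_right (Commute.refl _)).inv_right

theorem comm_conj (hx : Gd N x) {u v : G} (hu : u ∈ N) (hv : v ∈ N) : Commute u (v * u * v⁻¹) := by
  have h1 := h.comm_c hx hu hv
  have h2 := h.comm_c hx.inv hu hv
  have h3 := h.norm_one hx hu
  rw [mul_assoc] at h3
  have := (h1.mul_right h2).inv_right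
  convert this using 1
  conv_lhs => rw [eq_inv_of_mul_eq_one_left h3]
  group

omit h in
theorem sq_conj (hx : Gd N x) (a : G) : x * (x * a * x⁻¹) * x⁻¹ = x⁻¹ * a * x := by
  calc _ = x * x * a * (x * x)⁻¹ := by group
    _ = _ := by rw [hx.sq, inv_inv]

theorem conj_comm (hx : Gd N x) {g a : G} (hg : g ∈ N) (ha : a ∈ N) :
    x * ⁅g, a⁆ * x⁻¹ = ⁅g, x⁻¹ * a * x⁆ := by
  have h0 := h.norm_one hx ha
  have h1 := h.norm_one (h.mul hx.inv hg) ha
  have c1 := h.comm_c hx.inv ha hg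
  have c2 := h.comm_c hx (h.cj ha x) hg
  have c3 := h.comm_1 hx ha
  have c4 := (h.comm_conj hx hg (inv_mem ha)).eq
  rw [inv_inv] at c1
  rw [sq_conj hx] at c2
  have e2 : g⁻¹ * a * g = a * (g * a * g⁻¹)⁻¹ * a := by
    calc _ = a * (g⁻¹ * (a⁻¹ * g * a⁻¹⁻¹ * g) * g⁻¹)⁻¹ := by group
      _ = _ := by rw [← c4]; group
  have e3 : x * (g * a * g⁻¹) * x⁻¹ =
      x * a * x⁻¹ * a * (g * (x⁻¹ * a * x) * g⁻¹) * (x * a * x⁻¹) := by
    calc _ = x * a * x⁻¹ * (x * (a * (g * a * g⁻¹)⁻¹ * a) * x⁻¹)⁻¹ * (x * a * x⁻¹) := by group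
      _ = _ := by
        rw [← e2, ← eq_inv_of_mul_eq_one_left (a := a * (g * (x⁻¹ * a * x) * g⁻¹))
          (b := x * (g⁻¹ * a * g) * x⁻¹) (by rw [← h1]; group), ← mul_assoc _ a]
  calc _ = x * (g * a * g⁻¹) * x⁻¹ * (x * a * x⁻¹)⁻¹ := by rw [commutatorElement_def]; group
    _ = g * (x⁻¹ * a * x) * g⁻¹ * (a * (x * a * x⁻¹)) := by
      rw [e3, mul_inv_cancel_right, c3.eq, (c2.mul_left c1).eq]
    _ = _ := by rw [eq_inv_of_mul_eq_one_left h0, commutatorElement_def]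

theorem comm_conj' (hx : Gd N x) {g a : G} (hg : g ∈ N) (ha : a ∈ N) :
    ⁅g, x * a * x⁻¹⁆ = x⁻¹ * ⁅g, a⁆ * x := by
  have h1 := h.conj_comm hx hg (h.cj ha x)
  rw [show x⁻¹ * (x * a * x⁻¹) * x = a by group] at h1
  rw [← h1]; group

theorem class_two (hx : Gd N x) {u w g : G} (hu : u ∈ N) (hw : w ∈ N) (hg : g ∈ N) :
    g * ⁅u, w⁆ = ⁅u, w⁆ * g := by
  have cm : ∀ {a b}, a ∈ N → b ∈ N → ⁅a, b⁆ ∈ N := fun ha hb =>
    mul_mem (mul_mem (mul_mem ha hb) (inv_mem ha)) (inv_mem hb)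
  have ex : ∀ a : G, ⁅g * u, a⁆ = ⁅g, ⁅u, a⁆⁆ * ⁅u, a⁆ * ⁅g, a⁆ := fun a => by
    simp only [commutatorElement_def]; group
  have h1 := h.conj_comm hx (mul_mem hg hu) hw
  rw [ex, ex, ← h.conj_comm hx hu hw, ← h.conj_comm hx hg hw,
    h.comm_conj' hx hg (cm hu hw), ← sq_conj hx] at h1
  refine commutatorElement_eq_one_iff_mul_comm.1 (h.fpf hx (cm hg (cm hu hw)) ?_)
  generalize ⁅g, ⁅u, w⁆⁆ = t at h1
  generalize ⁅u, w⁆ = b at h1
  generalize ⁅g, w⁆ = c at h1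
  calc _ = x⁻¹ * (x * (x * t * x⁻¹) * x⁻¹ * (x * b * x⁻¹) * (x * c * x⁻¹)) * x * c⁻¹ * b⁻¹ := by
        group
    _ = _ := by rw [← h1]; group

section Inv

variable (hx : Gd N x) {t : G} (t2 : t * t = 1) (tx : t * x * t⁻¹ = x⁻¹)
include hx t2 tx

theorem fix_sq {c : G} (hc : c ∈ N) (e : t * c * t⁻¹ = c) : c * c = 1 := by
  have := h.nrm
  have tx' : t * x⁻¹ * t⁻¹ = x := by rw [← conj_inv, tx, inv_inv]
  have tN : t ∉ N := fun ht => hx.1 (by
    have h1 : x * x ∈ N := by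
      have : x * x = (x * t * x⁻¹) * t⁻¹ := by rw [mul_assoc, mul_assoc, ← mul_assoc t, tx']
      rw [this]; exact mul_mem (h.cj ht x) (inv_mem ht)
    rwa [hx.sq, inv_mem_iff] at h1)
  have h1 : (t * (x * c * x⁻¹)) ^ 4 = 1 := (h.H _).resolve_left fun e3 => tN (by
    have h2 : ((t * (x * c * x⁻¹) : G) : G ⧸ N) = t := by
      rw [QuotientGroup.mk_mul, (QuotientGroup.eq_one_iff _).2 (h.cj hc x), mul_one]
    have h3 := congrArg (QuotientGroup.mk (s := N)) e3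
    rw [QuotientGroup.mk_pow, h2, ← QuotientGroup.mk_pow, pow_three', t2, one_mul] at h3
    exact (QuotientGroup.eq_one_iff t).1 h3)
  have h2 : (t * (x * c * x⁻¹)) ^ 2 = c⁻¹ := by
    have h3 := h.norm_one hx hc
    rw [mul_assoc, (h.comm_3 hx hc).eq] at h3
    rw [← eq_inv_of_mul_eq_one_right h3, pow_two]
    calc _ = (t * x * t⁻¹) * (t * c * t⁻¹) * (t * x⁻¹ * t⁻¹) * (t * t) * (x * c * x⁻¹) := by group
      _ = _ := by rw [tx, e, tx', t2, mul_one]
  rw [show (4 : ℕ) = 2 * 2 from rfl, pow_mul, h2, inv_pow, inv_eq_one, pow_two] at h1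
  exact h1

theorem inv_sq {y : G} (hy : y ∈ N) (e : t * y * t⁻¹ = y⁻¹) : y * y = 1 := by
  have tx' : t * x⁻¹ * t⁻¹ = x := by rw [← conj_inv, tx, inv_inv]
  have c3 := h.comm_3 hx hy
  have e1 : t * (x * y * x⁻¹) * t⁻¹ = (x⁻¹ * y * x)⁻¹ := by
    calc _ = (t * x * t⁻¹) * (t * y * t⁻¹) * (t * x⁻¹ * t⁻¹) := by group
      _ = _ := by rw [tx, e, tx']; group
  have e2 : t * (x⁻¹ * y * x)⁻¹ * t⁻¹ = x * y * x⁻¹ := by
    calc _ = (t * x⁻¹ * t⁻¹) * (t * y * t⁻¹)⁻¹ * (t * x * t⁻¹) := by group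
      _ = _ := by rw [tx, e, tx', inv_inv]
  have h1 := h.fix_sq hx t2 tx (mul_mem (h.cj hy x) (inv_mem (h.cj' hy x))) (by
    rw [← conj_mul, e1, e2, c3.inv_right.eq])
  have h2 : x * y * x⁻¹ * (x * y * x⁻¹) = x⁻¹ * y * x * (x⁻¹ * y * x) := by
    generalize x * y * x⁻¹ = a at *
    generalize x⁻¹ * y * x = b at *
    rw [mul_assoc, ← mul_assoc b⁻¹, ← c3.inv_right.eq] at h1
    calc a * a = a * (a * b⁻¹ * b⁻¹) * (b * b) := by group
      _ = _ := by rw [h1, one_mul]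
  have h3 := h.fpf hx (mul_mem (h.cj hy x) (h.cj hy x)) (by rw [← conj_mul, sq_conj hx, h2])
  rwa [conj_mul, mul_inv_eq_one, mul_eq_left] at h3

theorem comm_fix {n : G} (hn : n ∈ N) : t * (n⁻¹ * (t * n * t⁻¹)) * t⁻¹ = n⁻¹ * (t * n * t⁻¹) := by
  have e : t * (n⁻¹ * (t * n * t⁻¹)) * t⁻¹ = (n⁻¹ * (t * n * t⁻¹))⁻¹ := by
    calc _ = t * n⁻¹ * t⁻¹ * ((t * t) * n * (t * t)⁻¹) := by group
      _ = _ := by rw [t2]; group
  rw [e, inv_eq_of_mul_eq_one_right (h.inv_sq hx t2 tx (mul_mem (inv_mem hn) (h.cj hn t)) e)]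

theorem fix_comm {a b : G} (ha : a ∈ N) (hb : b ∈ N) (e : t * a * t⁻¹ = a) (e' : t * b * t⁻¹ = b) :
    a * b = b * a := by
  rw [← inv_eq_of_mul_eq_one_right (h.fix_sq hx t2 tx (mul_mem ha hb) (by rw [← conj_mul, e, e'])),
    mul_inv_rev, inv_eq_of_mul_eq_one_right (h.fix_sq hx t2 tx ha e),
    inv_eq_of_mul_eq_one_right (h.fix_sq hx t2 tx hb e')]

theorem fix_conj {a n : G} (ha : a ∈ N) (hn : n ∈ N) (e : t * a * t⁻¹ = a) :
    t * (n * a * n⁻¹) * t⁻¹ = n * a * n⁻¹ := by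
  have h1 := h.fix_comm hx t2 tx (mul_mem (inv_mem hn) (h.cj hn t)) ha (h.comm_fix hx t2 tx hn) e
  calc _ = n * (n⁻¹ * (t * n * t⁻¹) * (t * a * t⁻¹)) * (t * n * t⁻¹)⁻¹ := by group
    _ = _ := by rw [e, h1]; group

theorem elem : IsElementaryAbelian 2 N := by
  have tx' : t * x⁻¹ * t⁻¹ = x := by rw [← conj_inv, tx, inv_inv]
  have s2 : x⁻¹ * t * (x⁻¹ * t) = 1 := by
    calc _ = x⁻¹ * (t * x⁻¹ * t⁻¹) * (t * t) := by group
      _ = 1 := by rw [tx', t2]; group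
  have sx : x⁻¹ * t * x * (x⁻¹ * t)⁻¹ = x⁻¹ := by
    calc _ = x⁻¹ * (t * x * t⁻¹) * x := by group
      _ = _ := by rw [tx]; group
  set s := x⁻¹ * t with hs
  let D : Set G := {a | a ∈ N ∧ (t * a * t⁻¹ = a ∨ s * a * s⁻¹ = a)}
  have mix : ∀ a ∈ N, ∀ b ∈ N, t * a * t⁻¹ = a → s * b * s⁻¹ = b → a * b = b * a :=
    fun a ha b hb e e' => by
    have m : a⁻¹ * b⁻¹ * a * b ∈ N := mul_mem (mul_mem (mul_mem (inv_mem ha) (inv_mem hb)) ha) hb
    have h1 : t * (a⁻¹ * b⁻¹ * a * b) * t⁻¹ = a⁻¹ * b⁻¹ * a * b := by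
      have := h.fix_conj hx t2 tx ha (inv_mem hb) e
      calc _ = (t * a * t⁻¹)⁻¹ * (t * (b⁻¹ * a * b⁻¹⁻¹) * t⁻¹) := by group
        _ = _ := by rw [e, this]; group
    have h2 : s * (a⁻¹ * b⁻¹ * a * b) * s⁻¹ = a⁻¹ * b⁻¹ * a * b := by
      have := h.fix_conj hx s2 sx hb (inv_mem ha) e'
      calc _ = (s * (a⁻¹ * b * a⁻¹⁻¹) * s⁻¹)⁻¹ * (s * b * s⁻¹) := by group
        _ = _ := by rw [e', this]; group
    have h3 := h.fpf hx.inv m (by
      generalize a⁻¹ * b⁻¹ * a * b = m at h1 h2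
      calc _ = x⁻¹ * (t * m * t⁻¹) * x⁻¹⁻¹ := by rw [h1]
        _ = s * m * s⁻¹ := by rw [hs]; group
        _ = m := h2)
    calc a * b = b * a * (a⁻¹ * b⁻¹ * a * b) := by group
      _ = _ := by rw [h3, mul_one]
  have d1 : ∀ a ∈ D, a * a = 1 := fun a ha =>
    ha.2.elim (h.fix_sq hx t2 tx ha.1) (h.fix_sq hx s2 sx ha.1)
  have d2 : ∀ a ∈ D, ∀ b ∈ D, a * b = b * a := by
    rintro a ⟨ha, e | e⟩ b ⟨hb, e' | e'⟩
    exacts [h.fix_comm hx t2 tx ha hb e e', mix a ha b hb e e', (mix b hb a ha e' e).symm,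
      h.fix_comm hx s2 sx ha hb e e']
  have hc : ∀ a ∈ closure D, ∀ b ∈ closure D, a * b = b * a := by
    have h3 : closure D ≤ centralizer D := (closure_le _).2 fun a ha b hb => d2 b hb a ha
    intro a ha b hb
    have h4 : closure D ≤ centralizer {a} :=
      (closure_le _).2 fun y hy => mem_centralizer_singleton_iff.2 (h3 ha y hy)
    exact (mem_centralizer_singleton_iff.1 (h4 hb)).symm
  have hq : ∀ a ∈ closure D, a * a = 1 := fun a ha => by
    induction ha using closure_induction with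
    | mem x hx => exact d1 x hx
    | one => exact one_mul 1
    | mul x y hx hy ex ey =>
      rw [mul_assoc, ← mul_assoc y, ← hc x hx y hy, mul_assoc, ey, mul_one, ex]
    | inv x _ ex => rw [← mul_inv_rev, ex, inv_one]
  have k1 : ∀ n ∈ N, n⁻¹ * (x⁻¹ * n * x) ∈ closure D := fun n hn => by
    have e : n⁻¹ * (x⁻¹ * n * x) =
        n⁻¹ * (t * n * t⁻¹) * ((t * n * t⁻¹)⁻¹ * (s * (t * n * t⁻¹) * s⁻¹)) := by
      calc _ = n⁻¹ * (x⁻¹ * ((t * t) * n * (t * t)⁻¹) * x) := by rw [t2]; group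
        _ = _ := by rw [hs]; group
    rw [e]
    exact mul_mem (subset_closure ⟨mul_mem (inv_mem hn) (h.cj hn t), Or.inl (h.comm_fix hx t2 tx hn)⟩)
      (subset_closure ⟨mul_mem (inv_mem (h.cj hn t)) (h.cj (h.cj hn t) s),
        Or.inr (h.comm_fix hx s2 sx (h.cj hn t))⟩)
  have k2 : ∀ n ∈ N, n ∈ closure D := fun n hn => by
    have h1 := mul_mem (inv_mem (k1 _ (h.cj hn x))) (k1 n hn)
    have h2 := h.norm_one hx hn
    have h3 := h.four n hn
    have c1 := h.comm_1 hx hn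
    rw [show x⁻¹ * (x * n * x⁻¹) * x = n by group] at h1
    convert h1 using 1
    generalize x * n * x⁻¹ = a at *
    generalize x⁻¹ * n * x = b at *
    calc n = n⁻¹ * n⁻¹ * n⁻¹ * n ^ 4 := by group
      _ = n⁻¹ * n⁻¹ * n⁻¹ * (n * a * b) := by rw [h2, h3]
      _ = n⁻¹ * (n⁻¹ * a) * b := by group
      _ = _ := by rw [c1.inv_left.eq]; group
  refine ⟨⟨⟨fun a b => Subtype.ext (hc _ (k2 _ a.2) _ (k2 _ b.2))⟩⟩, fun a ha => ?_⟩
  rw [pow_two, hq a (k2 a ha)]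

end Inv

end Ctx

variable [Finite G]

theorem primes (H : ∀ g : G, g ^ 3 = 1 ∨ g ^ 4 = 1) {r : ℕ} (hr : r.Prime) (hd : r ∣ Nat.card G) :
    r = 2 ∨ r = 3 := by
  have := Fact.mk hr
  obtain ⟨g, hg⟩ := exists_prime_orderOf_dvd_card' r hd
  rcases H g with h | h
  · exact Or.inr ((Nat.prime_dvd_prime_iff_eq hr Nat.prime_three).1 (hg ▸ orderOf_dvd_of_pow_eq_one h))
  · exact Or.inl ((Nat.prime_dvd_prime_iff_eq hr Nat.prime_two).1
      (hr.dvd_of_dvd_pow (n := 2) (hg ▸ orderOf_dvd_of_pow_eq_one h)))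

theorem pow_of_pgroup {p q a b : ℕ} (hp : p.Coprime q) {g : G} (h1 : g ^ p ^ a = 1)
    (h2 : g ^ q ^ b = 1) : g = 1 :=
  orderOf_eq_one_iff.1 (Nat.eq_one_of_dvd_coprimes (hp.pow a b) (orderOf_dvd_of_pow_eq_one h1)
    (orderOf_dvd_of_pow_eq_one h2))

theorem four_of (H : ∀ g : G, g ^ 3 = 1 ∨ g ^ 4 = 1) {Q : Subgroup G} (hQ : IsPGroup 2 Q) :
    ∀ u ∈ Q, u ^ 4 = 1 := fun u hu => (H u).elim (fun e => by
  obtain ⟨k, hk⟩ := hQ ⟨u, hu⟩
  rw [pow_of_pgroup (g := u) (p := 2) (q := 3) (b := 1) (by norm_num) (congrArg Subtype.val hk) e,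
    one_pow]) id

theorem three_of (H : ∀ g : G, g ^ 3 = 1 ∨ g ^ 4 = 1) {Q : Subgroup G} (hQ : IsPGroup 3 Q) :
    ∀ u ∈ Q, u ^ 3 = 1 := fun u hu => (H u).elim id fun e => by
  obtain ⟨k, hk⟩ := hQ ⟨u, hu⟩
  rw [pow_of_pgroup (g := u) (p := 3) (q := 2) (b := 2) (by norm_num) (congrArg Subtype.val hk) e,
    one_pow]

theorem mixed (H : ∀ g : G, g ^ 3 = 1 ∨ g ^ 4 = 1) {a b : G} (ha : a ^ 3 = 1) (hb : b ^ 4 = 1)
    (hc : Commute a b) : a = 1 ∨ b = 1 := by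
  rcases H (a * b) with e | e
  · rw [hc.mul_pow, ha, one_mul] at e
    exact Or.inr (eq_one_of_34 e hb)
  · rw [hc.mul_pow, hb, mul_one] at e
    exact Or.inl (eq_one_of_34 ha e)

theorem caseB (H : ∀ g : G, g ^ 3 = 1 ∨ g ^ 4 = 1) {ρ g : G} (hρ : orderOf ρ = 3)
    (hg : orderOf g = 4) (h2 : pCore 2 G ≠ ⊥) : ∃ (N : Subgroup G) (_ : N.Normal),
      (IsPGroup 2 N ∧ Monoid.exponent N = 4 ∧ Group.nilpotencyClass N ≤ 2 ∧ N.index = 3) ∨
      (IsElementaryAbelian 2 N ∧ Nonempty (G ⧸ N ≃* Equiv.Perm (Fin 3))) := by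
  classical
  have := Fact.mk Nat.prime_three
  obtain ⟨S⟩ : Nonempty (Sylow 2 G) := inferInstance
  have h9 : ¬ 3 ^ 2 ∣ Nat.card G := fun hd => by
    obtain ⟨A, hA⟩ := Sylow.exists_subgroup_card_pow_prime 3 hd
    have hp : IsPGroup 3 A := IsPGroup.of_card hA
    have := IsPGroup.isMulCommutative_of_card_eq_prime_sq hA
    have hc := H5.isCyclic_of_fpf_of_comm (A := A) h2 (by rw [normalizer_eq_top]; exact le_top)
      fun a ha a1 => eq_bot_iff.2 fun u hu => ((mixed H (three_of H hp a ha)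
        (four_of H (H2.pCore_isPGroup 2 G) u hu.1)
        (mem_centralizer_singleton_iff.1 hu.2).symm).resolve_left a1)
    obtain ⟨a, ha⟩ := hc.exists_ofOrder_eq_natCard
    have h3 : orderOf a ∣ 3 := orderOf_dvd_of_pow_eq_one (Subtype.ext (three_of H hp a a.2))
    rw [ha, hA] at h3
    exact absurd h3 (by norm_num)
  have ρ3 : ρ ^ 3 = 1 := hρ ▸ pow_orderOf_eq_one ρ
  have ρ1 : ρ ≠ 1 := fun e => by rw [e, orderOf_one] at hρ; exact absurd hρ (by norm_num)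
  have hS : (S : Subgroup G).index = 3 := by
    have h1 : (S : Subgroup G).index ≠ 1 := fun e => ρ1 (eq_one_of_34 ρ3
      (four_of H S.isPGroup' ρ (by rw [index_eq_one.1 e]; trivial)))
    have h3 : ∀ {r : ℕ}, r.Prime → r ∣ (S : Subgroup G).index → r = 3 := fun hr hd =>
      (primes H hr (hd.trans (index_dvd_card _))).resolve_left fun e => S.not_dvd_index (e ▸ hd)
    have h4 := Nat.eq_prime_pow_of_unique_prime_dvd index_ne_zero_of_finite h3
    generalize (S : Subgroup G).index.primeFactorsList.length = k at h4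
    rcases k with _ | _ | k
    · exact absurd h4 h1
    · exact h4
    · exact absurd (((pow_dvd_pow 3 (by omega)).trans h4.symm.dvd).trans (index_dvd_card _)) h9
  set N := (S : Subgroup G).normalCore with hN
  have hNS : N ≤ S := normalCore_le _
  have hp : IsPGroup 2 N := S.isPGroup'.to_le hNS
  have ctx : Ctx N := ⟨H, inferInstance, four_of H hp⟩
  have gd : Gd N ρ := ⟨fun e => ρ1 (eq_one_of_34 ρ3 (ctx.four ρ e)), ρ3⟩
  have := Fintype.ofFinite (G ⧸ (S : Subgroup G))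
  let e3 : (G ⧸ (S : Subgroup G)) ≃ Fin 3 := Fintype.equivFinOfCardEq (by
    rw [← Nat.card_eq_fintype_card]; exact hS)
  let φ : G →* Equiv.Perm (Fin 3) :=
    e3.permCongrHom.toMonoidHom.comp (MulAction.toPermHom G (G ⧸ (S : Subgroup G)))
  have hker : φ.ker = N := by
    rw [hN, normalCore_eq_ker, ← MonoidHom.comap_ker,
      (MonoidHom.ker_eq_bot_iff _).2 e3.permCongrHom.injective]
    rfl
  have hidx : N.index = Nat.card φ.range := by rw [← hker, index_ker]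
  have h6 : N.index ∣ 6 := by
    have := card_subgroup_dvd_card φ.range
    rwa [← hidx, Nat.card_perm, Nat.card_eq_fintype_card, Fintype.card_fin] at this
  have h3 : 3 ∣ N.index := hS ▸ index_dvd_of_le hNS
  refine ⟨N, inferInstance, ?_⟩
  by_cases hi : N.index = 3
  · refine Or.inl ⟨hp, ?_, ?_, hi⟩
    · have hgN : g ∈ N := by
        have h4 := N.pow_index_mem g
        rw [hi] at h4
        have h5 : g = (g ^ 3)⁻¹ := by
          rw [eq_inv_iff_mul_eq_one, ← pow_succ']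
          exact (hg ▸ pow_orderOf_eq_one g : g ^ 4 = 1)
        exact h5 ▸ inv_mem h4
      refine Nat.dvd_antisymm (Monoid.exponent_dvd_of_forall_pow_eq_one fun u =>
        Subtype.ext (ctx.four u u.2)) ?_
      rw [← hg, ← orderOf_mk g hgN]
      exact Monoid.order_dvd_exponent _
    · have := hp.isNilpotent
      rw [← Subgroup.lowerCentralSeries_eq_bot_iff_nilpotencyClass_le]
      refine eq_bot_iff.2 ?_
      rw [show (2 : ℕ) = 1 + 1 from rfl, Subgroup.lowerCentralSeries_succ, commutator_le]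
      intro a ha b _
      rw [mem_bot, commutatorElement_eq_one_iff_mul_comm]
      have hle : (⊤ : Subgroup N).lowerCentralSeries 1 ≤ center N := by
        rw [Subgroup.lowerCentralSeries_succ, commutator_le]
        intro u _ w _
        exact mem_center_iff.2 fun y => Subtype.ext (ctx.class_two gd u.2 w.2 y.2)
      exact (mem_center_iff.1 (hle ha) b).symm
  · have hi6 : N.index = 6 := by
      have := Nat.le_of_dvd (by norm_num) h6
      have := N.index_ne_zero_of_finite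
      omega
    have hsurj : Function.Surjective φ := MonoidHom.range_eq_top.1 (eq_top_of_card_eq _ (by
      rw [← hidx, hi6, Nat.card_perm, Nat.card_eq_fintype_card, Fintype.card_fin]; rfl))
    refine Or.inr ⟨?_, ⟨(QuotientGroup.quotientMulEquivOfEq hker.symm).trans
      (QuotientGroup.quotientKerEquivOfSurjective φ hsurj)⟩⟩
    obtain ⟨τ, hτ⟩ : ∃ τ : Equiv.Perm (Fin 3), τ * φ ρ * τ⁻¹ * φ ρ = 1 := by
      have h4 : φ ρ ^ 3 = 1 := by rw [← map_pow, ρ3, map_one]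
      generalize φ ρ = σ at h4
      revert σ
      decide
    obtain ⟨s, rfl⟩ := hsurj τ
    have hm : s * ρ * s⁻¹ * ρ ∈ N := by rw [← hker, MonoidHom.mem_ker]; simpa using hτ
    let f : N → N := fun n => ⟨n * (ρ⁻¹ * (n : G)⁻¹ * ρ), mul_mem n.2 (ctx.cj' (inv_mem n.2) ρ)⟩
    have finj : Function.Injective f := fun a b e => by
      have e1 : (a : G) * (ρ⁻¹ * (a : G)⁻¹ * ρ) = b * (ρ⁻¹ * (b : G)⁻¹ * ρ) := congrArg Subtype.val e
      have := ctx.fpf gd.inv (mul_mem (inv_mem b.2) a.2) (by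
        calc _ = (b : G)⁻¹ * (b * (ρ⁻¹ * (b : G)⁻¹ * ρ)) * (a * (ρ⁻¹ * (a : G)⁻¹ * ρ))⁻¹ * a := by
              group
          _ = _ := by rw [e1]; group)
      exact Subtype.ext (inv_mul_eq_one.1 this).symm
    obtain ⟨n, hn⟩ := Finite.surjective_of_injective finj ⟨_, hm⟩
    have hn' : (n : G) * (ρ⁻¹ * (n : G)⁻¹ * ρ) = s * ρ * s⁻¹ * ρ := congrArg Subtype.val hn
    have tx : (n : G)⁻¹ * s * ρ * ((n : G)⁻¹ * s)⁻¹ = ρ⁻¹ := by
      calc _ = (n : G)⁻¹ * (s * ρ * s⁻¹ * ρ) * ρ⁻¹ * n := by group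
        _ = _ := by rw [← hn']; group
    generalize (n : G)⁻¹ * s = t at tx
    have c2 : Commute ρ (t * t) := by
      have : t * t * ρ * (t * t)⁻¹ = ρ := by
        calc _ = t * (t * ρ * t⁻¹) * t⁻¹ := by group
          _ = _ := by rw [tx, ← conj_inv, tx, inv_inv]
      exact (mul_inv_eq_iff_eq_mul.1 this).symm
    have t4 : t ^ 4 = 1 := (H t).resolve_left fun e => ρ1 (by
      have h4 : t = (t * t)⁻¹ := by rw [eq_inv_iff_mul_eq_one, ← pow_three, e]
      have h5 : t * ρ * t⁻¹ = ρ := by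
        rw [mul_inv_eq_iff_eq_mul]; exact (h4 ▸ c2.inv_right : Commute ρ t).symm
      rw [h5] at tx
      rwa [pow_three', mul_eq_one_iff_eq_inv.2 tx, one_mul] at ρ3)
    exact ctx.elem gd ((mixed H ρ3 (by rw [← pow_two, ← pow_mul, show 2 * 4 = 4 * 2 from rfl,
      pow_mul, t4, one_pow]) c2).resolve_left ρ1) tx

theorem caseA (H : ∀ g : G, g ^ 3 = 1 ∨ g ^ 4 = 1) {g : G} (hg : orderOf g = 4)
    (h3 : pCore 3 G ≠ ⊥) : IsElementaryAbelian 3 (pCore 3 G) ∧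
      ((IsCyclic (G ⧸ pCore 3 G) ∧ (pCore 3 G).index = 4) ∨
        Nonempty (G ⧸ pCore 3 G ≃* QuaternionGroup 2)) := by
  set V := pCore 3 G with hV
  have v3 := three_of H (H2.pCore_isPGroup 3 G)
  have mk1 : ∀ {a : G}, (a : G ⧸ V) = 1 ↔ a ∈ V := fun {a} => QuotientGroup.eq_one_iff a
  have nV : ∀ {s : G}, s ≠ 1 → s ^ 4 = 1 → s ∉ V := fun s1 s4 e => s1 (eq_one_of_34 (v3 _ e) s4)
  have sq4 : ∀ {s : G}, s * s = 1 → s ^ 4 = 1 := fun {s} e => by
    rw [show (4 : ℕ) = 2 * 2 from rfl, pow_mul, pow_two s, e, one_pow]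
  have inv : ∀ s : G, s ≠ 1 → s * s = 1 → ∀ v ∈ V, s * v * s⁻¹ = v⁻¹ := fun s s1 s2 v hv => by
    have h1 : (s * v) ^ 4 = 1 := (H _).resolve_left fun e => nV s1 (sq4 s2) (mk1.1 (by
      have h2 := congrArg (QuotientGroup.mk (s := V)) e
      rwa [QuotientGroup.mk_pow, QuotientGroup.mk_mul, mk1.2 hv, mul_one, ← QuotientGroup.mk_pow,
        pow_three', s2, one_mul] at h2))
    have h2 : (s * v) ^ 2 = s * v * s⁻¹ * v := by
      rw [pow_two, inv_eq_of_mul_eq_one_right s2]; group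
    have h4 : s * v * s⁻¹ * v = 1 := eq_one_of_34
      (v3 _ (mul_mem (Normal.conj_mem inferInstance v hv s) hv))
      (by rw [← h2, ← pow_mul, mul_comm, pow_mul, h1, one_pow])
    exact eq_inv_of_mul_eq_one_left h4
  obtain ⟨⟨v, hv⟩, v1⟩ := ne_bot_iff_exists_ne_one.1 h3
  have hC : centralizer (V : Set G) ≤ V := H2.le_pCore fun a => ⟨1, Subtype.ext (by
    rcases H a with e | e
    · simpa using e
    · rcases mixed H (v3 v hv) e (a.2 v hv) with e1 | e1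
      · exact absurd (Subtype.ext e1) v1
      · simp [e1])⟩
  have g4 : g ^ 4 = 1 := hg ▸ pow_orderOf_eq_one g
  have z1 : g * g ≠ 1 := fun e => by
    have := orderOf_dvd_of_pow_eq_one ((pow_two g).trans e)
    rw [hg] at this
    exact absurd this (by norm_num)
  have z2 : g * g * (g * g) = 1 := by rw [← g4]; simp only [pow_succ, pow_zero, one_mul, mul_assoc]
  set z := g * g with hz
  have same : ∀ s : G, s ≠ 1 → s * s = 1 → (s : G ⧸ V) = z := fun s s1 s2 => by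
    rw [QuotientGroup.eq]
    refine hC fun w hw => ?_
    have e1 := inv z z1 z2 w hw
    have e2 := inv s s1 s2 w hw
    calc w * (s⁻¹ * z) = s⁻¹ * (s * w * s⁻¹) * z := by group
      _ = s⁻¹ * (z * w * z⁻¹) * z := by rw [e1, e2]
      _ = _ := by group
  have in3 : ∀ a : G, a ^ 3 = 1 → a ∈ V := fun a a3 => by
    have c : Commute (z : G ⧸ V) a := by
      have := same (a * z * a⁻¹) (by simpa using z1) (by rw [conj_mul, z2]; simp)
      rw [QuotientGroup.mk_mul, QuotientGroup.mk_mul, QuotientGroup.mk_inv,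
        mul_inv_eq_iff_eq_mul] at this
      exact this.symm
    have a3' : (a : G ⧸ V) ^ 3 = 1 := by rw [← QuotientGroup.mk_pow, a3, QuotientGroup.mk_one]
    have z4 : (z : G ⧸ V) ^ 4 = 1 := by rw [← QuotientGroup.mk_pow, sq4 z2, QuotientGroup.mk_one]
    rcases H (z * a) with e | e
    · have h1 := congrArg (QuotientGroup.mk (s := V)) e
      rw [QuotientGroup.mk_pow, QuotientGroup.mk_mul, c.mul_pow, a3', mul_one] at h1
      exact absurd (mk1.1 (eq_one_of_34 h1 z4)) (nV z1 (sq4 z2))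
    · have h1 := congrArg (QuotientGroup.mk (s := V)) e
      rw [QuotientGroup.mk_pow, QuotientGroup.mk_mul, c.mul_pow, z4, one_mul] at h1
      exact mk1.1 (eq_one_of_34 a3' h1)
  have q4 : ∀ q : G ⧸ V, q ^ 4 = 1 := fun q => by
    obtain ⟨a, rfl⟩ := QuotientGroup.mk_surjective q
    rcases H a with e | e
    · rw [mk1.2 (in3 a e), one_pow]
    · rw [← QuotientGroup.mk_pow, e, QuotientGroup.mk_one]
  have zo : orderOf (z : G ⧸ V) = 2 := orderOf_eq_prime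
    (by rw [← QuotientGroup.mk_pow, pow_two, z2, QuotientGroup.mk_one])
    fun e => nV z1 (sq4 z2) (mk1.1 e)
  have go : orderOf (g : G ⧸ V) = 2 ^ (1 + 1) := orderOf_eq_prime_pow
    (fun e => nV z1 (sq4 z2) (mk1.1 (by rw [hz, QuotientGroup.mk_mul, ← pow_two]; exact e))) (q4 _)
  refine ⟨⟨⟨⟨fun a b => Subtype.ext ?_⟩⟩, v3⟩, ?_⟩
  · have := inv z z1 z2 _ (mul_mem a.2 b.2)
    rw [← conj_mul, inv z z1 z2 _ a.2, inv z z1 z2 _ b.2, ← mul_inv_rev, inv_inj] at this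
    exact this.symm
  rcases H3.isCyclic_or_quaternion_of_unique (p := 2) (G := G ⧸ V) (fun q => ⟨2, q4 q⟩)
    (H3.unique_of_forall_mem_zpowers Nat.prime_two zo fun q hq => by
      obtain ⟨a, rfl⟩ := QuotientGroup.mk_surjective q
      have a1 : a ∉ V := fun e => by rw [mk1.2 e, orderOf_one] at hq; exact absurd hq (by norm_num)
      have a4 := (H a).resolve_left fun e => a1 (in3 a e)
      have a2 : a * a ∈ V := mk1.1 (by rw [QuotientGroup.mk_mul, ← pow_two, ← hq, pow_orderOf_eq_one])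
      rw [same a (fun e => a1 (e ▸ one_mem _)) (eq_one_of_34 (v3 _ a2) (by
        rw [← pow_two, ← pow_mul, mul_comm, pow_mul, a4, one_pow]))]
      exact mem_zpowers _) with hc | ⟨-, n, ⟨e⟩⟩
  · refine Or.inl ⟨hc, Nat.dvd_antisymm ?_ ?_⟩
    · obtain ⟨a, ha⟩ := hc.exists_ofOrder_eq_natCard
      rw [index, ← ha]
      exact orderOf_dvd_of_pow_eq_one (q4 a)
    · have := orderOf_dvd_natCard (g : G ⧸ V)
      rwa [go] at this
  · have h1 := orderOf_dvd_of_pow_eq_one (q4 (e.symm (QuaternionGroup.a 1)))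
    rw [MulEquiv.orderOf_eq, QuaternionGroup.orderOf_a_one] at h1
    have h2 := Nat.le_of_dvd (by norm_num) h1
    have h4 : n = 0 := by
      by_contra hn
      have := Nat.pow_le_pow_right (show 0 < 2 by norm_num) (show 2 ≤ n + 1 by omega)
      omega
    subst h4
    exact Or.inr ⟨e⟩

end H33.O4
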