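/- Groups of even characteristic containing `S₄ ≀ 2` with odd index: the frame `D₈ × D₈`. -/
import Cfsg.Agent.H33.EngC
import Cfsg.Agent.H16.AltEA
import Cfsg.Agent.H18.AltEB
import Cfsg.Agent.H98.Core
import Cfsg.Agent.H8.TransferEval

set_option autoImplicit false
set_option linter.unusedSectionVars false

open Equiv Subgroup H20.AR Cfsg

universe u

namespace H33.W2

/-- Burnside's transfer theorem modulo a normal subgroup. -/
theorem burn {C : Type*} [Group C] [Finite C] (Z : Subgroup C) [Z.Normal] (P : Sylow 2 C)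
    (hZ : Z ≤ P) (h : ∀ c ∈ normalizer ((P : Subgroup C) : Set C), ∀ j ∈ (P : Subgroup C),
      (j * c)⁻¹ * (c * j) ∈ Z) :
    ∃ K : Subgroup C, (∀ x, (orderOf x).Coprime 2 → x ∈ K) ∧ ∀ x ∈ K, ∀ k, x ^ 2 ^ k = 1 → x ∈ Z := by
  have := Fact.mk Nat.prime_two
  let f := QuotientGroup.mk' Z
  let Q := P.mapSurjective (QuotientGroup.mk'_surjective Z)
  have hm : ∀ x, f x ∈ (Q : Subgroup (C ⧸ Z)) ↔ x ∈ (P : Subgroup C) := fun x => by
    rw [← mem_comap, Sylow.coe_mapSurjective, comap_map_eq, QuotientGroup.ker_mk', sup_eq_left.2 hZ]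
  have hP : normalizer ((Q : Subgroup (C ⧸ Z)) : Set (C ⧸ Z)) ≤
      centralizer ((Q : Subgroup (C ⧸ Z)) : Set (C ⧸ Z)) := by
    intro c hc
    obtain ⟨c, rfl⟩ := QuotientGroup.mk'_surjective Z c
    rintro _ ⟨j, hj, rfl⟩
    rw [← map_mul, ← map_mul]
    refine QuotientGroup.eq.2 (h c (mem_normalizer_iff.2 fun x => ?_) j hj)
    rw [← hm, ← hm, map_mul, map_mul, map_inv]
    exact mem_normalizer_iff.1 hc _
  refine ⟨(MonoidHom.transferSylow Q hP).ker.comap f, fun x hx => ?_, fun x hx k hk => ?_⟩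
  · obtain ⟨k, hk⟩ := Q.isPGroup' (MonoidHom.transferSylow Q hP (f x))
    rw [mem_comap, MonoidHom.mem_ker, ← orderOf_eq_one_iff]
    exact ((hx.of_dvd_left ((orderOf_map_dvd _ _).trans (orderOf_map_dvd _ _))).pow_right k).eq_one_of_dvd
      (orderOf_dvd_of_pow_eq_one hk)
  · have := MonoidHom.ker_transferSylow_disjoint Q hP (zpowers (f x))
      (H98.isPGroup_zpowers (k := k) (by rw [← map_pow, hk, map_one]))
    exact (QuotientGroup.eq_one_iff x).1 (disjoint_def.1 this hx (mem_zpowers _))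

variable {G : Type u} [Group G]

theorem exists_core (hE : IsOfEvenCharacteristic G) {X : Subgroup G} (hX : IsPGroup 2 X) (h1 : X ≠ ⊥)
    (S : Sylow 2 G) (hS : (S : Subgroup G) ≤ normalizer (X : Set G)) :
    ∃ Q : Subgroup G, IsPGroup 2 Q ∧ Q ≤ S ∧ normalizer (X : Set G) ≤ normalizer (Q : Set G) ∧
      ∀ g ∈ normalizer (X : Set G), (∀ q ∈ Q, Commute q g) → g ∈ Q :=
  ⟨pCoreOf 2 (normalizer (X : Set G)), H98.isPGroup_pCoreOf _,
    (H98.isSyl_sylow_of_le S hS).pCoreOf_le, H98.self_le_normalizer_pCoreOf _, fun g hg h =>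
    ⟨⟨g, hg⟩, hE _ ⟨X, hX, h1, rfl⟩ ⟨S, hS⟩ fun q hq => Subtype.ext (h q ⟨q, hq, rfl⟩), rfl⟩⟩

/-- The generators of `S₄ ≀ 2`. -/
structure W (κ : (Bool → D8) →* G) (t : G) (ρ : Bool → G) : Prop where
  inj : Function.Injective κ
  tt : t * t = 1
  tx : ∀ x, t * κ x * t⁻¹ = κ fun j => x (!j)
  ρ3 : ∀ j, ρ j ^ 3 = 1
  ρz : ∀ j, ρ j * κ (z1 j) * (ρ j)⁻¹ = κ (u1 j true)
  ρv : ∀ j, ρ j * κ (u1 j true) * (ρ j)⁻¹ = κ (u1 j true * z1 j)
  ρc : ∀ j y, Commute (ρ j) (κ (sg (!j) y))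
  ρρ : Commute (ρ true) (ρ false)
  tρ : ∀ j, t * ρ j * t⁻¹ = ρ (!j)
  eρ : ∀ j, κ (u1 j false) * ρ j * (κ (u1 j false))⁻¹ = (ρ j)⁻¹
  syl : ∀ R : Subgroup G, IsPGroup 2 R → Nat.card R ≤ 128

theorem not_ne (j : Bool) : (!j) ≠ j := by cases j <;> decide
theorem ne_not (j : Bool) : j ≠ !j := by cases j <;> decide
theorem eq_not {i j : Bool} (h : i ≠ j) : i = !j := by revert h; cases i <;> cases j <;> decide

theorem sg_not (j : Bool) (y : D8) : (fun l => sg j y (!l)) = sg (!j) y := by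
  funext l; cases j <;> cases l <;> simp [sg_apply]

theorem eq_sg (j : Bool) (x : Bool → D8) : x = sg j (x j) * sg (!j) (x (!j)) := by
  funext l; cases j <;> cases l <;> simp [sg_apply]

theorem zz_univ (j : Bool) : zz Finset.univ = z1 j * z1 (!j) := by
  funext l; cases j <;> cases l <;> simp [sg_apply, zz]

variable [Finite G] {κ : (Bool → D8) →* G} {t : G} {ρ : Bool → G} (w : W κ t ρ)
include w

theorem W.tsg (j : Bool) (y : D8) : t * κ (sg j y) * t⁻¹ = κ (sg (!j) y) := by rw [w.tx, sg_not]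

theorem W.t_mem : t ∈ NJ κ := mem_normalizer_fintype (by
  rintro _ ⟨x, rfl⟩; exact ⟨_, (w.tx x).symm⟩)

theorem W.not_comm (x : Bool → D8) (j : Bool) : ¬ Commute (κ x * t) (κ (z1 j)) := fun h => by
  have h1 : Commute t (κ (z1 j)) := by
    simpa using ((z1_comm j x).map κ).symm.inv_left.mul_left h
  have := w.tsg j zD
  rw [h1.eq, mul_inv_cancel_right] at this
  exact ne_not j (z1_inj (w.inj this))

theorem W.card_J : Nat.card κ.range = 64 := by
  rw [← Nat.card_congr (MonoidHom.ofInjective w.inj).toEquiv, Nat.card_eq_fintype_card]; rfl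

theorem W.exists_sylow : ∃ S : Sylow 2 G, κ.range ≤ S ∧ t ∈ S ∧ κ.range.relIndex S = 2 ∧
    ∀ s ∈ S, ∃ x, s = κ x ∨ s = κ x * t := by
  have := Fact.mk Nat.prime_two
  obtain ⟨S, hS⟩ := (IsPGroup.to_sup_of_normal_left' (AR.isPGroup_range κ)
    (H98.isPGroup_zpowers (k := 1) (x := t) (by rw [pow_one, pow_two, w.tt]))
    (zpowers_le.2 w.t_mem)).exists_le_sylow
  have h1 : κ.range ≤ S := le_sup_left.trans hS
  have h2 : t ∈ (S : Subgroup G) := hS (mem_sup_right (mem_zpowers t))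
  have h3 : t ∉ κ.range := by
    rintro ⟨x, e⟩
    exact w.not_comm 1 true (by rw [map_one, one_mul, ← e]; exact ((z1_comm true x).map κ).symm)
  have h4 : κ.range.relIndex S = 2 := by
    have e := (κ.range.subgroupOf S).index_mul_card
    rw [Nat.card_congr (subgroupOfEquivOfLe h1).toEquiv, w.card_J] at e
    have h5 := w.syl S S.isPGroup'
    have h6 : κ.range.relIndex S ≠ 1 := fun e => h3 (relIndex_eq_one.1 e h2)
    have h7 : 0 < Nat.card S := Nat.card_pos
    unfold relIndex at h6 ⊢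
    change _ = Nat.card S at e
    omega
  refine ⟨S, h1, h2, h4, fun s hs => ?_⟩
  by_cases h : s ∈ κ.range
  · exact h.imp fun x e => Or.inl e.symm
  · obtain ⟨x, e⟩ := mem_subgroupOf.1 ((mul_mem_iff_of_index_two h4 (a := ⟨s, hs⟩) (b := ⟨t, h2⟩)).2
      (iff_of_false h h3))
    exact ⟨x, Or.inr (by rw [e, coe_mul, mul_assoc, w.tt, mul_one])⟩

theorem W.fr : Fr κ := by
  have := Fact.mk Nat.prime_two
  refine ⟨w.inj, fun R hR hJ hc => ?_⟩
  by_contra hn
  obtain ⟨S, h1, h2, h4, h5⟩ := w.exists_sylow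
  have hS := H98.isSyl_sylow S
  have hRS : H98.IsSyl 2 R ⊤ := hS.of_card_ge hR le_top (by
    have h6 := w.syl S S.isPGroup'
    obtain ⟨k, hk⟩ := w.card_J ▸ card_dvd_of_le hJ
    obtain ⟨m, hm⟩ := IsPGroup.iff_card.1 hR
    have h7 : k ≠ 1 := fun e => hn (eq_of_le_of_card_ge hJ (by rw [w.card_J]; omega)).ge
    have h8 : 0 < Nat.card R := Nat.card_pos
    change Nat.card S ≤ _
    omega)
  obtain ⟨g, -, e⟩ := hRS.exists_cj_eq hS
  have key : ∀ j, g * κ (z1 j) * g⁻¹ = κ (zz Finset.univ) := fun j => by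
    have c : ∀ s ∈ (S : Subgroup G), Commute s (g * κ (z1 j) * g⁻¹) := fun s hs => by
      obtain ⟨r, hr, rfl⟩ := e.ge hs
      exact (hc r hr j).map (MulAut.conj g)
    obtain ⟨x, hx | hx⟩ := h5 _ (e.le (H98.conj_mem_cj (hJ ⟨z1 j, rfl⟩)))
    · rw [hx] at c ⊢
      have c1 : ∀ l, Cn (x l) := fun l => (by decide : ∀ y : D8, (∀ a, a * y = y * a) → Cn y) _ fun a => by
        simpa using congrFun (w.inj ((map_mul _ _ _).trans ((c _ (h1 ⟨sg l a, rfl⟩)).eq.trans
          (map_mul _ _ _).symm))) l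
      have c2 := w.tx x
      rw [(c t h2).eq, mul_inv_cancel_right] at c2
      have c3 := congrFun (w.inj c2) true
      have c4 : x ≠ 1 := fun e => ((root_z κ j).conj g).ne_one w.inj (by rw [hx, e, map_one])
      congr 1
      funext l
      rw [zz_of_mem (Finset.mem_univ l)]
      refine (c1 l).resolve_left fun e => c4 (funext fun m => ?_)
      cases l <;> cases m <;> simp_all
    · exact absurd (hx ▸ (c _ (h1 ⟨z1 j, rfl⟩)).symm) (w.not_comm x j)
  have := (key true).trans (key false).symm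
  exact absurd (z1_inj (w.inj (by simpa using this))) (by decide)

theorem W.A : EngA κ := H16.AR.jobEngA G Bool κ w.fr

theorem W.B : EngB κ := H18.AR.jobEngB G Bool κ w.fr w.A

theorem W.not_ev (j : Bool) : ¬ Root κ (κ (u1 j false * u1 (!j) true)) := fun r => by
  obtain ⟨g, hg, η, s, e⟩ := w.B.swap _ j (!j) (ne_not j) (r.sq' w.inj) r
    (by simpa [sg_ne (ne_not j)] using not_cn_u false) (by simpa [sg_ne (not_ne j)] using not_cn_u true)
  have e1 := (e false true (by simpa [sg_ne (ne_not j)] using inU_u false)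
    (by simpa [sg_ne (not_ne j)] using inU_u true)).1
  obtain ⟨π, θ, s'⟩ := w.A.act (t * g) (mul_mem w.t_mem hg)
  obtain rfl : π = 1 := Equiv.ext fun l => by
    have := s'.z l
    rw [show t * g * κ (z1 l) * (t * g)⁻¹ = t * (g * κ (z1 l) * g⁻¹) * t⁻¹ by group, s.z, z1, w.tsg] at this
    rw [← z1_inj (w.inj this)]
    cases j <;> cases l <;> decide
  obtain ⟨A, hA⟩ := s.u j false
  rw [e1, swap_apply_left] at hA
  have e2 : t * g * κ (u1 j false) * (t * g)⁻¹ = κ fun l => (u1 (!j) true * zz A) (!l) := by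
    rw [← w.tx, ← hA]; group
  have := ((s'.of_eq w.inj e2).2 j false).2 (by simpa using inU_u false)
  rw [w.A.ker _ _ s' j] at this
  simp only [Bool.xor_false, Perm.one_apply, Pi.mul_apply, sg_self, (cn_zz A _).inU_mul] at this
  exact absurd this (by decide)

theorem W.ru (hn : NoI2 G) (j ε : Bool) : Root κ (κ (u1 j ε)) := by
  cases ε
  · obtain ⟨A, r⟩ := AR.th w.fr w.A w.B hn j false
    have r1 := r.erase
    by_cases h : (!j) ∈ A
    · rw [show A.erase j = {!j} by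
        ext l; by_cases e : l = j
        · simp [e]
        · simp [eq_not e, h], zz_single] at r1
      refine absurd (r1.of_conj (h := ρ (!j)) ?_) (w.not_ev j)
      have := w.ρc (!j) (uD false)
      rw [Bool.not_not] at this
      rw [map_mul, ← conj_mul, w.ρz, this.eq, mul_inv_cancel_right, map_mul]
    · rwa [show A.erase j = ∅ by
        ext l; by_cases e : l = j
        · simp [e]
        · simp [eq_not e, h], zz_empty, mul_one] at r1
  · exact (root_z κ j).of_conj (w.ρz j)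

theorem W.root_sg (hn : NoI2 G) (j : Bool) {y : D8} (h2 : y * y = 1) (h1 : y ≠ 1) :
    Root κ (κ (sg j y)) := by
  by_cases c : Cn y
  · rw [c.resolve_left h1]; exact root_z κ j
  obtain ⟨ε, hε⟩ := exists_inU h2
  rcases hε.cases c with rfl | rfl
  · exact w.ru hn j ε
  · rw [sg_mul]; exact (w.ru hn j ε).mul_z (by simpa using not_cn_u ε)

theorem W.not_sg_z (hn : NoI2 G) (j : Bool) {y : D8} (h2 : y * y = 1) (h1 : ¬ Cn y) :
    ¬ Root κ (κ (sg j y * z1 (!j))) := fun r =>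
  w.B.u_gen w.A w.inj (j := j) (l := !j) (A := {!j}) (w.root_sg hn j h2 fun e => h1 (e ▸ cn_one))
    (by rwa [zz_single]) (by simpa using h1) (by simp) (by rw [sg_ne (not_ne j)]; exact cn_one)

theorem W.unl (hn : NoI2 G) (x : Bool → D8) (i j : Bool) (hij : i ≠ j) (sq : x * x = 1)
    (r : Root κ (κ x)) (hi : ¬ Cn (x i)) (hj : ¬ Cn (x j)) : InU false (x i) := by
  obtain rfl := eq_not hij.symm
  obtain ⟨ε, hε⟩ := exists_inU (sq_apply sq i)
  cases ε
  · exact hε
  have r1 : Root κ (κ (u1 i true * sg (!i) (x (!i)))) := by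
    rcases hε.cases hi with e | e
    · rwa [eq_sg i x, e] at r
    · have := r.mul_z hi
      rwa [eq_sg i x, e, ← (z1_comm i _).eq, ← mul_assoc, (z1_comm i _).eq, ← sg_mul, mul_assoc, zD_sq,
        mul_one] at this
  refine absurd (r1.of_conj' (h := ρ i) (g := κ (sg (!i) (x (!i)) * z1 (!!i))) ?_)
    (w.not_sg_z hn _ (sq_apply sq _) hj)
  rw [Bool.not_not, ← (z1_comm i _).eq, map_mul, ← conj_mul, w.ρz, (w.ρc i _).eq, mul_inv_cancel_right,
    map_mul]

theorem W.nf (hn : NoI2 G) {x : Bool → D8} (r : Root κ (κ x)) (h : ∀ j, ¬ Cn (x j)) : NF κ := by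
  refine ⟨w.fr, w.ru hn, fun i j hij => ?_, w.unl hn⟩
  have key : ∀ (x : Bool → D8) l, Root κ (κ x) → ¬ Cn (x l) → InU false (x l) →
      Root κ (κ (u1 l false * sg (!l) (x (!l)))) := fun x l r h1 h2 => by
    rcases h2.cases h1 with e | e
    · rwa [eq_sg l x, e] at r
    · have := r.mul_z h1
      rwa [eq_sg l x, e, ← (z1_comm l _).eq, ← mul_assoc, (z1_comm l _).eq, ← sg_mul, mul_assoc, zD_sq,
        mul_one] at this
  obtain rfl := eq_not hij
  have sq := r.sq' w.inj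
  have r1 := key x j r (h j) (w.unl hn x _ _ (ne_not j) sq r (h _) (h _))
  have := key _ (!j) r1 (by simpa [sg_ne (not_ne j)] using h _)
    (by simpa [sg_ne (not_ne j)] using w.unl hn x _ _ (not_ne j) sq r (h _) (h _))
  simpa [sg_ne (ne_not j)] using this

/-- `C(Z(J)) = J`. -/
theorem W.cenZ (hE : IsOfEvenCharacteristic G) {g : G} (hg : ∀ j, Commute g (κ (z1 j))) :
    g ∈ κ.range := by
  have := Fact.mk Nat.prime_two
  let Z : Subgroup G :=
    { carrier := {g | ∃ A, g = κ (zz A)}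
      one_mem' := ⟨∅, by simp⟩
      mul_mem' := by rintro _ _ ⟨A, rfl⟩ ⟨B, rfl⟩; exact ⟨_, by rw [← map_mul, zz_mul]⟩
      inv_mem' := by
        rintro _ ⟨A, rfl⟩
        exact ⟨A, inv_eq_of_mul_eq_one_right (by rw [← map_mul, zz_sq, map_one])⟩ }
  have hZ : ∀ A, κ (zz A) ∈ Z := fun A => ⟨A, rfl⟩
  have ZJ : Z ≤ κ.range := by rintro _ ⟨A, rfl⟩; exact ⟨_, rfl⟩
  let C := centralizer (Z : Set G)
  have hC : ∀ c, c ∈ C ↔ ∀ j, Commute c (κ (z1 j)) := fun c =>
    ⟨fun h j => (h _ (zz_single j ▸ hZ {j})).symm, fun h => by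
      rintro _ ⟨A, rfl⟩
      induction A using Finset.induction_on with
      | empty => simp
      | insert j A hj ih => rw [zz_insert hj, map_mul]; exact ((h j).mul_right (Eq.symm ih)).symm⟩
  have JC : κ.range ≤ C := by
    rintro _ ⟨x, rfl⟩; exact (hC _).2 fun j => ((z1_comm j x).map κ).symm
  have hs : H98.IsSyl 2 κ.range C := ⟨JC, AR.isPGroup_range κ, fun Q hQ h1 h3 =>
    le_antisymm (w.fr.syl Q hQ h1 fun q hq => (hC q).1 (h3 hq)) h1⟩
  obtain ⟨P, hP⟩ := hs.exists_sylow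
  have : (Z.subgroupOf C).Normal := ⟨fun z hz c => by
    have : (c : G) * z * (c : G)⁻¹ = z := by rw [← c.2 z hz, mul_inv_cancel_right]
    exact mem_subgroupOf.2 (show (c : G) * z * (c : G)⁻¹ ∈ Z by rw [this]; exact hz)⟩
  obtain ⟨K, k1, k2⟩ := burn (Z.subgroupOf C) P (hP ▸ comap_mono ZJ) fun c hc j hj => by
    rw [hP] at hc hj
    have hc' : (c : G) ∈ NJ κ := mem_normalizer_fintype fun y hy =>
      (mem_normalizer_iff.1 hc ⟨y, JC hy⟩).1 hy
    obtain ⟨π, η, s⟩ := w.A.act c hc'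
    obtain rfl : π = 1 := Equiv.ext fun l => (z1_inj (w.inj ((s.z l).symm.trans
      (by rw [((hC c).1 c.2 l).eq, mul_inv_cancel_right]; rfl))))
    obtain ⟨x, hx⟩ := hj
    obtain ⟨y, e, h1, h2⟩ := s.x x
    obtain ⟨A, hA⟩ := exists_zz (x := x⁻¹ * y) fun l => by
      have h3 := h2 l
      rw [w.A.ker _ _ s l] at h3
      exact (by decide : ∀ a b : D8, (InU false b ↔ InU false a) → (InU true b ↔ InU true a) →
        (Cn b ↔ Cn a) → Cn (a⁻¹ * b)) _ _ (by simpa using h3 false) (by simpa using h3 true) (h1 l)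
    refine ⟨A, ?_⟩
    have e2 : (c : G)⁻¹ * κ (zz A) * c = κ (zz A) := by
      rw [mul_assoc, c.2 _ (hZ A), inv_mul_cancel_left]
    show ((j : G) * c)⁻¹ * (c * j) = _
    rw [← e2, ← hA, map_mul, ← e, map_inv, hx]
    simp [mul_assoc]
  obtain ⟨S, h1, -, -, h5⟩ := w.exists_sylow
  obtain ⟨Q, q1, q2, q3, q4⟩ := exists_core hE ((AR.isPGroup_range κ).to_le ZJ)
    (fun e => (root_z κ true).ne_one w.inj (mem_bot.1 (e ▸ zz_single true ▸ hZ {true}))) S fun s hs => by
      obtain ⟨π, η, a⟩ := w.A.act s (w.A.nrm S S.isPGroup' h1 hs)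
      exact mem_normalizer_fintype (by rintro _ ⟨A, rfl⟩; exact ⟨_, a.zz A⟩)
  have CN : C ≤ normalizer (Z : Set G) := centralizer_le_normalizer _
  have QN : Q ≤ normalizer (H98.res 2 C : Set G) := fun q hq => H98.normalizer_le_normalizer_res C (by
    obtain ⟨π, η, a⟩ := w.A.act q (w.A.nrm S S.isPGroup' h1 (q2 hq))
    refine mem_normalizer_fintype fun c hc => (hC _).2 fun j => ?_
    rw [← π.apply_symm_apply j, ← a.z]
    exact ((hC c).1 hc _).map (MulAut.conj q))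
  have RK : H98.res 2 C ≤ K.map C.subtype := H98.res_le_of_forall fun x hx h =>
    ⟨⟨x, hx⟩, k1 _ (by rwa [orderOf_mk]), rfl⟩
  have : IsPGroup 2 C := H98.res_eq_bot_iff.1 (eq_bot_iff.2 (H98.res_le_of_forall fun x hx h => by
    have xr := H98.mem_res_of_coprime hx h
    have x2 : x ^ 2 ∈ Q := q4 _ (CN (pow_mem hx 2)) fun q hq => by
      have m1 : x * q * x⁻¹ * q⁻¹ ∈ Q := mul_mem ((mem_normalizer_iff.1 (q3 (CN hx)) q).1 hq) (inv_mem hq)
      have m2 : x * q * x⁻¹ * q⁻¹ ∈ H98.res 2 C := by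
        rw [mul_assoc, mul_assoc, ← mul_assoc q]
        exact mul_mem xr ((mem_normalizer_iff.1 (QN hq) _).1 (inv_mem xr))
      obtain ⟨c, hc, e⟩ := RK m2
      obtain ⟨k, hk⟩ := H98.isPGroup_iff_forall.1 q1 _ m1
      obtain ⟨A, hA⟩ := mem_subgroupOf.1 (k2 c hc k (Subtype.ext (by rw [← e] at hk; simpa using hk)))
      have e1 : x * q * x⁻¹ = κ (zz A) * q := by rw [← hA, show (c : G) = _ from e]; group
      have e2 : x * κ (zz A) * x⁻¹ = κ (zz A) := by rw [← hx _ (hZ A), mul_inv_cancel_right]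
      refine (mul_inv_eq_iff_eq_mul.1 ?_).symm
      rw [show x ^ 2 * q * (x ^ 2)⁻¹ = x * (x * q * x⁻¹) * x⁻¹ by rw [pow_two]; group, e1, ← conj_mul, e1,
        e2, ← mul_assoc, ← map_mul, zz_sq, map_one, one_mul]
    obtain ⟨k, hk⟩ := H98.isPGroup_iff_forall.1 q1 _ x2
    rw [← pow_mul, ← pow_succ'] at hk
    exact mem_bot.2 (orderOf_eq_one_iff.1 ((h.pow_right _).eq_one_of_dvd (orderOf_dvd_of_pow_eq_one hk)))))
  exact w.fr.syl C this JC (fun c hc => (hC c).1 hc) ((hC g).2 hg)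

end H33.W2
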